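import Cfsg.Agent.B85.U
import Cfsg.Agent.B84.Four
import Cfsg.Agent.BS.RankTwo

/-! # Groups with an involution whose centralizer is a quotient of `GU₂(q)`: the setting -/

set_option autoImplicit false

namespace Cfsg.Agent.B85

open Cfsg.Agent.GT Cfsg.Agent.Cl Cfsg.Agent.Cl.Uni Cfsg.Agent.TT Subgroup

variable {F G : Type*} [Field F] [StarRing F] [NeZero (2 : F)] [Group G]

/-- The setting: `φ` maps `GU₂(q)` onto the centralizer of `t₁`, and `g` permutes the involutions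
`t₁, t₂, t₃` of the four-group in the torus `td` cyclically. -/
structure Hy (q : ℕ) (φ : U2 F →* G) (g : G) : Prop where
  fr : IsFrob F q
  odd : Odd q
  range : φ.range = C1[φ (td (-1) (-1))]
  ker : ∀ A, φ A = 1 → ∃ c : unitary F, Odd (orderOf c) ∧ A = td c c
  g1 : g * φ (td (-1) (-1)) * g⁻¹ = φ (td 1 (-1))
  g2 : g * φ (td 1 (-1)) * g⁻¹ = φ (td (-1) 1)

/-- no nontrivial element of the centre of the centralizer commutes with `g` -/
def D1 (φ : U2 F →* G) (g : G) : Prop := ∀ a : unitary F, Commute g (φ (td a a)) → φ (td a a) = 1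

/-- the root group -/
def RU (φ : U2 F →* G) : Subgroup G := (φ.comp xuH).range
/-- the torus centralising the four-group -/
def Tor (φ : U2 F →* G) : Subgroup G := (φ.comp tdH).range
/-- the torus of the Borel subgroup -/
def Kt (φ : U2 F →* G) : Subgroup G := (φ.comp kk).range

variable {q : ℕ} {φ : U2 F →* G} {g x y : G} {A B : U2 F} {a b c d : unitary F}

omit [NeZero (2 : F)] in
theorem mem_RU : x ∈ RU φ ↔ ∃ c, φ (xu c) = x := Iff.rfl
omit [NeZero (2 : F)] in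
theorem xu_mem (c : skewAdjoint F) : φ (xu c) ∈ RU φ := ⟨c, rfl⟩
omit [NeZero (2 : F)] in
theorem mem_Kt : x ∈ Kt φ ↔ ∃ a, φ (kk a) = x := Iff.rfl
omit [NeZero (2 : F)] in
theorem kk_mem (a : Fˣ) : φ (kk a) ∈ Kt φ := ⟨a, rfl⟩
theorem mem_Tor : x ∈ Tor φ ↔ ∃ a b, x = φ (td a b) :=
  ⟨fun ⟨p, e⟩ => ⟨p.1, p.2, e.symm⟩, fun ⟨a, b, e⟩ => ⟨(a, b), e.symm⟩⟩
theorem td_mem (a b : unitary F) : φ (td a b) ∈ Tor φ := ⟨(a, b), rfl⟩
omit [NeZero (2 : F)] in
theorem RU_le : RU φ ≤ φ.range := fun _ ⟨_, e⟩ => ⟨_, e⟩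
omit [NeZero (2 : F)] in
theorem RU_comm : RU φ ≤ C[RU φ] := by
  rintro _ ⟨a, rfl⟩ _ ⟨b, rfl⟩
  exact (map_mul _ _ _).symm.trans ((congrArg _ (mul_comm _ _)).trans (map_mul _ _ _))
omit [NeZero (2 : F)] in
theorem cj_xu (a : Fˣ) (c : skewAdjoint F) : φ (kk a) * φ (xu c) * (φ (kk a))⁻¹ = φ (xu (nsm (a : F) c)) := by
  rw [← map_inv, ← map_mul, ← map_mul, kk_xu]
omit [NeZero (2 : F)] in
theorem Kt_RU : Kt φ ≤ N[RU φ] := by
  rintro _ ⟨a, rfl⟩
  refine mem_normalizer_iff.2 fun x => ⟨?_, fun ⟨c, e⟩ => ⟨nsm ((a⁻¹ : Fˣ) : F) c, ?_⟩⟩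
  · rintro ⟨c, rfl⟩; exact ⟨_, (cj_xu a _).symm⟩
  · refine (cj_xu a⁻¹ _).symm.trans ?_
    rw [show φ (xu c) = _ from e, map_inv, map_inv]
    simp [mul_assoc]
omit [NeZero (2 : F)] in
theorem kk_comm (a b : Fˣ) : Commute (φ (kk a)) (φ (kk b)) := ((Commute.all a b).map kk).map φ
theorem t_sq (e1 : a * a = 1) (e2 : b * b = 1) : φ (td a b) * φ (td a b) = 1 := by
  rw [← map_mul, td_mul, e1, e2, td_one, map_one]
theorem tt1 : φ (td (-1) (-1)) * φ (td (-1) (-1)) = 1 := t_sq (by simp) (by simp)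
theorem tt2 : φ (td 1 (-1)) * φ (td 1 (-1)) = 1 := t_sq (by simp) (by simp)
theorem tt3 : φ (td (-1) 1) * φ (td (-1) 1) = 1 := t_sq (by simp) (by simp)
theorem t12 : φ (td (-1) (-1)) * φ (td 1 (-1)) = φ (td (-1) 1) := by rw [← map_mul, td_mul]; simp
theorem T_comm : Commute (φ (td a b)) (φ (td c d)) := Commute.map (by
  simp [Commute, SemiconjBy, td_mul, mul_comm]) φ
theorem Z_comm (a : unitary F) (A : U2 F) : Commute (φ (td a a)) (φ A) := Commute.map (td_comm a A) φ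
theorem Z_RU (a : unitary F) : φ (td a a) ∈ C[RU φ] := by rintro _ ⟨c, rfl⟩; exact (Z_comm a _).symm
theorem cj_swap {i : Fˣ} (h : (i : F) * star (i : F) = -1) (a b : unitary F) :
    φ (kk i) * φ (td a b) * (φ (kk i))⁻¹ = φ (td b a) := by rw [← map_inv, ← map_mul, ← map_mul, kk_swap h]

namespace Hy

variable (h : Hy q φ g)
include h

theorem ker_det (e : φ A = 1) (hd : dt A = 1) : A = 1 := by
  obtain ⟨c, ⟨k, hk⟩, rfl⟩ := h.ker A e
  have := pow_orderOf_eq_one c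
  rw [dt_td] at hd
  rw [hk, pow_succ, pow_mul, sq, hd, one_pow, one_mul] at this
  rw [this, td_one]

theorem commute_iff : Commute (φ A) (φ B) ↔ Commute A B :=
  ⟨fun e => mul_inv_eq_one.1 (h.ker_det (by rw [map_mul, map_inv, map_mul, map_mul, e.eq, mul_inv_cancel])
    (by rw [map_mul, map_inv, map_mul, map_mul, mul_comm (dt A), mul_inv_cancel])), fun e => e.map φ⟩

theorem conj_iff {C : U2 F} (hd : dt B = dt C) : φ A * φ B * (φ A)⁻¹ = φ C ↔ A * B * A⁻¹ = C :=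
  ⟨fun e => mul_inv_eq_one.1 (h.ker_det (by simp only [map_mul, map_inv, e, mul_inv_cancel])
    (by simp only [map_mul, map_inv, hd, mul_inv_cancel_comm, mul_inv_cancel])),
    fun e => by rw [← e, map_mul, map_mul, map_inv]⟩

theorem inj_det (e : φ A = φ B) (hd : dt A = dt B) : A = B :=
  mul_inv_eq_one.1 (h.ker_det (by rw [map_mul, map_inv, e, mul_inv_cancel]) (by rw [map_mul, map_inv, hd, mul_inv_cancel]))

theorem td_eq_one : φ (td a b) = 1 → a = b ∧ Odd (orderOf a) := fun e => by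
  obtain ⟨c, o, e⟩ := h.ker _ e
  obtain ⟨rfl, rfl⟩ := td_inj.1 e
  exact ⟨rfl, o⟩

theorem t1_ne : φ (td (-1) (-1)) ≠ 1 := fun e => by
  have := (h.td_eq_one e).2
  rw [orderOf_eq_prime (p := 2) (by simp) neg_ne] at this
  exact absurd this (by decide)

theorem t2_ne : φ (td 1 (-1)) ≠ φ (td (-1) (-1)) := fun e =>
  neg_ne (h.td_eq_one (show φ (td (-1) 1) = 1 by rw [← t12, e, tt1])).1

theorem g3 : g * φ (td (-1) 1) * g⁻¹ = φ (td (-1) (-1)) := by
  rw [← t12, ← conj_mul, h.g1, h.g2, ← map_mul, td_mul]; simp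

theorem cent : Commute x (φ (td (-1) (-1))) ↔ ∃ A, φ A = x := by
  rw [← MonoidHom.mem_range, h.range, mem_cent1]; rfl

theorem cent_t2 : Commute (φ A) (φ (td 1 (-1))) ↔ ∃ a b, A = td a b := by
  rw [h.commute_iff]
  refine ⟨fun e => ?_, by rintro ⟨a, b, rfl⟩; simp [Commute, SemiconjBy, td_mul]⟩
  rw [td_ww] at e
  have e1 := congrArg U2.a e.eq
  have e2 := congrArg U2.b e.eq
  simp at e1 e2
  exact eq_td e2.symm e1.symm

/-- the centralizer of the four-group is the torus -/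
theorem cent_U : Commute x (φ (td (-1) (-1))) ∧ Commute x (φ (td 1 (-1))) ↔ ∃ a b, x = φ (td a b) := by
  constructor
  · rintro ⟨e1, e2⟩
    obtain ⟨A, rfl⟩ := h.cent.1 e1
    obtain ⟨a, b, rfl⟩ := h.cent_t2.1 e2
    exact ⟨a, b, rfl⟩
  · rintro ⟨a, b, rfl⟩
    exact ⟨T_comm, T_comm⟩

theorem g_T (a b : unitary F) : ∃ c d, g * φ (td a b) * g⁻¹ = φ (td c d) :=
  h.cent_U.1 ⟨h.g3 ▸ (commute_conj_iff g).2 T_comm, h.g1 ▸ (commute_conj_iff g).2 T_comm⟩

theorem g_T' (a b : unitary F) : ∃ c d, g⁻¹ * φ (td a b) * g = φ (td c d) :=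
  h.cent_U.1 ⟨(commute_conj_iff g).1 (by rw [h.g1]; simpa [mul_assoc] using T_comm),
    (commute_conj_iff g).1 (by rw [h.g2]; simpa [mul_assoc] using T_comm)⟩

theorem g_cube : ∃ a b, g ^ 3 = φ (td a b) := by
  have e : ∀ y, g ^ 3 * y * (g ^ 3)⁻¹ = g * (g * (g * y * g⁻¹) * g⁻¹) * g⁻¹ := fun y => by
    rw [pow_three]; group
  exact h.cent_U.1 ⟨mul_inv_eq_iff_eq_mul.1 (by rw [e, h.g1, h.g2, h.g3]),
    mul_inv_eq_iff_eq_mul.1 (by rw [e, h.g2, h.g3, h.g1])⟩

/-- `w g` is a reflection -/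
theorem wg_sq {i : Fˣ} (hi : (i : F) * star (i : F) = -1) : ∃ a b, φ (kk i) * g * (φ (kk i) * g) = φ (td a b) := by
  have e : ∀ y, φ (kk i) * g * (φ (kk i) * g) * y * (φ (kk i) * g * (φ (kk i) * g))⁻¹ =
      φ (kk i) * (g * (φ (kk i) * (g * y * g⁻¹) * (φ (kk i))⁻¹) * g⁻¹) * (φ (kk i))⁻¹ := fun y => by group
  have w := cj_swap (φ := φ) hi
  exact h.cent_U.1 ⟨mul_inv_eq_iff_eq_mul.1 (by rw [e, h.g1, w, h.g3, w]),
    mul_inv_eq_iff_eq_mul.1 (by rw [e, h.g2, w, h.g2, w])⟩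

/-- every involution of the centralizer is the image of an involution -/
theorem invol (e : φ A * φ A = 1) (e1 : φ A ≠ 1) :
    φ A = φ (td (-1) (-1)) ∨ ∃ B, φ A = φ B * φ (td 1 (-1)) * (φ B)⁻¹ := by
  obtain ⟨c, ⟨k, hk⟩, o⟩ := h.ker (A * A) (by rw [map_mul, e])
  have m : φ (A ^ (2 * k + 1)) = φ A := by rw [map_pow, pow_succ, pow_mul, sq, e, one_pow, one_mul]
  rw [← m] at e1 ⊢
  refine (invol_cases h.fr (A := A ^ (2 * k + 1)) ?_ fun n => e1 (by rw [n, map_one])).imp (congrArg φ)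
    fun ⟨B, n⟩ => ⟨B, by rw [n, map_mul, map_mul, map_inv]⟩
  rw [← (Commute.refl A).mul_pow, o, td_pow, ← hk, pow_orderOf_eq_one, td_one]

theorem invol_conj (e : x * x = 1) (e1 : x ≠ 1) (c : Commute x (φ (td (-1) (-1)))) :
    IsConj (φ (td (-1) (-1))) x := by
  obtain ⟨A, rfl⟩ := h.cent.1 c
  rcases h.invol e e1 with n | ⟨B, n⟩
  · rw [n]
  · exact isConj_iff.2 ⟨φ B * g, by rw [n, ← h.g1]; group⟩

/-- conjugation -/
theorem conj (k : G) : Hy q ((MulAut.conj k).toMonoidHom.comp φ) (k * g * k⁻¹) where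
  fr := h.fr
  odd := h.odd
  range := by
    ext x
    rw [mem_cent1]
    exact ⟨by rintro ⟨A, rfl⟩; exact (commute_conj_iff k).2 (h.cent.2 ⟨A, rfl⟩), fun e => by
      obtain ⟨A, n⟩ := h.cent.1 ((commute_conj_iff k).1 (show Commute (k * (k⁻¹ * x * k) * k⁻¹) _ by
        rw [show k * (k⁻¹ * x * k) * k⁻¹ = x by group]; exact e))
      exact ⟨A, by simp [n, mul_assoc]⟩⟩
  ker A e := h.ker A (conj_eq_one_iff.1 e)
  g1 := by simp [← h.g1, mul_assoc]
  g2 := by simp [← h.g2, mul_assoc]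

/-- rotation -/
theorem rot : Hy q ((MulAut.conj g).toMonoidHom.comp φ) g := by simpa using h.conj g

/-- reflection -/
theorem refl {i : Fˣ} (hi : (i : F) * star (i : F) = -1) : Hy q (φ.comp (MulAut.conj (kk i)).toMonoidHom) g⁻¹ := by
  have w : ∀ a b, (φ.comp (MulAut.conj (kk i)).toMonoidHom) (td a b) = φ (td b a) := fun a b =>
    congrArg φ (kk_swap hi a b)
  refine ⟨h.fr, h.odd, ?_, fun A e => ?_, ?_, ?_⟩
  · rw [w, ← h.range, MonoidHom.range_comp, MonoidHom.range_eq_top.2 (MulEquiv.surjective _),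
      ← MonoidHom.range_eq_map]
  · obtain ⟨c, o, n⟩ := h.ker _ e
    exact ⟨c, o, (MulAut.conj (kk i)).injective (n.trans (kk_swap hi c c).symm)⟩
  · rw [w, w, ← h.g3]; group
  · rw [w, w, ← h.g2]; group

theorem xu_inj' {a b : skewAdjoint F} (e : φ (xu a) = φ (xu b)) : a = b :=
  xu_inj (h.inj_det e (by rw [dt_xu, dt_xu]))

theorem card_RU : Nat.card (RU φ) = q :=
  (Nat.card_congr (MonoidHom.ofInjective (f := φ.comp xuH) fun _ _ e => h.xu_inj' e).toEquiv).symm.trans (card_skew h.fr)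

theorem odd_RU : Odd (Nat.card (RU φ)) := h.card_RU ▸ h.odd

theorem exists_skew : ∃ c : skewAdjoint F, c ≠ 0 :=
  h.fr.nt.exists_delta.elim fun δ e => ⟨⟨δ, e.2⟩, fun n => e.1 (congrArg Subtype.val n)⟩

/-- the normalizer of the root group in the centralizer -/
theorem norm_RU (e : φ A ∈ N[RU φ]) : ∃ c a, A = xu c * kk a := by
  obtain ⟨c, hc⟩ := h.exists_skew
  obtain ⟨c', r⟩ := mem_RU.1 (conj_mem_of_mem_norm e (xu_mem c))
  exact eq_bor (comm_xu hc (mul_inv_eq_iff_eq_mul.1 ((h.conj_iff (by rw [dt_xu, dt_xu])).1 r.symm)))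

theorem cent_RU (e : φ A ∈ C[RU φ]) : ∃ c a, A = xu c * td a a := by
  obtain ⟨c, a, rfl⟩ := h.norm_RU (cent_le_norm _ e)
  obtain ⟨c', hc⟩ := h.exists_skew
  have m : φ (kk a) ∈ C[RU φ] := by simpa using mul_mem (inv_mem (RU_comm (xu_mem c))) e
  have := congrArg Subtype.val (h.xu_inj' ((cj_xu a c').symm.trans
    (commute_iff_conj.1 (m _ (xu_mem c')).symm)))
  obtain ⟨b, r⟩ := kk_td (a := a) (mul_right_cancel₀ (fun n => hc (Subtype.ext n)) (this.trans (one_mul _).symm))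
  exact ⟨c, b, by rw [r]⟩

/-- an involution of the Borel subgroup is central -/
theorem invol_norm (e : x ∈ N[RU φ]) (c1 : Commute x (φ (td (-1) (-1)))) (e1 : x * x = 1) (e2 : x ≠ 1) :
    x = φ (td (-1) (-1)) := by
  obtain ⟨A, rfl⟩ := h.cent.1 c1
  refine (h.invol e1 e2).resolve_right fun ⟨B, r⟩ => ?_
  rw [r, ← map_inv, ← map_mul, ← map_mul] at e
  obtain ⟨c, a, r⟩ := h.norm_RU e
  have s : (xu c * kk a) * (xu c * kk a) = 1 := by rw [← r, conj_mul, td_ww, ww_mul]; simp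
  have d := congrArg (fun A => (dt A : F)) r
  have s1 := congrArg U2.a s
  simp only [map_mul, map_inv, mul_inv_cancel_comm, dt_td, dt_xu, one_mul] at d
  simp [dt_val] at d s1
  rcases mul_self_eq_one_iff.1 s1 with s1 | s1 <;> simp [s1] at d <;> exact two_ne_zero (α := F) (by linear_combination -d)

theorem finite_U : Finite (U2 F) := Nat.finite_of_card_ne_zero (by
  have := h.fr.two_le
  rw [card_U2 h.fr]
  exact mul_ne_zero (by omega) (mul_ne_zero (by omega) (Nat.sub_ne_zero_of_lt (by nlinarith))))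

theorem card_H : Nat.card C1[φ (td (-1) (-1))] * Nat.card φ.ker = q * ((q + 1) * (q ^ 2 - 1)) := by
  rw [← h.range, ← index_ker, φ.ker.index_mul_card, card_U2 h.fr]

theorem prime_p : (ringChar F).Prime := by haveI := h.fr.fin; exact CharP.char_is_prime F _

theorem q_pow : ∃ n, 0 < n ∧ q = ringChar F ^ n := by
  haveI := h.fr.fin
  haveI := Fintype.ofFinite F
  haveI := Fact.mk h.prime_p
  obtain ⟨n, -, e⟩ := FiniteField.card F (ringChar F)
  obtain ⟨k, -, r⟩ := (Nat.dvd_prime_pow h.prime_p).1 (show q ∣ ringChar F ^ (n : ℕ) by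
    rw [← e, ← Nat.card_eq_fintype_card, h.fr.card]; exact Dvd.intro_left _ (sq q).symm)
  exact ⟨k, Nat.pos_of_ne_zero fun z => by have := h.fr.two_le; simp [z] at r; omega, r⟩

theorem p_dvd : ringChar F ∣ q := h.q_pow.elim fun _ e => e.2 ▸ dvd_pow_self _ e.1.ne'

theorem isP_RU : IsPGroup (ringChar F) (RU φ) := by
  obtain ⟨n, -, e⟩ := h.q_pow
  exact IsPGroup.of_card (h.card_RU.trans e)

theorem not_dvd_add : ¬ ringChar F ∣ q + 1 := fun e =>
  h.prime_p.one_lt.ne' (Nat.dvd_one.1 ((Nat.dvd_add_right h.p_dvd).1 e))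

theorem not_dvd_sq : ¬ ringChar F ∣ q ^ 2 - 1 := fun e => h.prime_p.one_lt.ne' (Nat.dvd_one.1 (by
  have := h.fr.two_le
  exact (Nat.dvd_add_right e).1 (by
    rw [Nat.sub_add_cancel (by nlinarith)]; exact h.p_dvd.trans (dvd_pow_self _ two_ne_zero))))

variable [Finite G]

theorem syl_RU : IsPiHallOf {ringChar F} (RU φ) φ.range := by
  refine syl_mk h.prime_p RU_le h.isP_RU fun e => ?_
  have := h.card_H
  rw [← h.range, ← card_mul_relIndex RU_le, h.card_RU, mul_assoc] at this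
  have := Nat.eq_of_mul_eq_mul_left (by have := h.fr.two_le; omega) this ▸ e.mul_right _
  exact (h.prime_p.dvd_mul.1 this).elim h.not_dvd_add h.not_dvd_sq

theorem exists_syl_cent : ∃ S, IsPiHallOf {2} S ⊤ ∧ S ≤ C1[φ (td (-1) (-1))] := by
  obtain ⟨S, hS, le⟩ := exists_syl_ge (p := 2) (M := ⊤) (Q := zpowers (φ (td (-1) (-1)))) Nat.prime_two
    (PG.isPGroup_zpowers_of_pow_eq_one (k := 1) (by rw [pow_one, sq, tt1])) le_top
  have p := syl_isPGroup Nat.prime_two hS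
  have := inf_cent_ne_bot_of_isPGroup Nat.prime_two p p le_normalizer fun e =>
    h.t1_ne (e.le (le (mem_zpowers _)))
  obtain ⟨z, hz, o⟩ := exists_mem_orderOf_eq Nat.prime_two
    (prime_dvd_card_of_isPGroup Nat.prime_two (p.to_le inf_le_left) this)
  obtain ⟨k, e⟩ := isConj_iff.1 (h.invol_conj (mul_self_of_orderOf o) (ne_one_of_orderOf o)
    (hz.2 _ (le (mem_zpowers _))).symm)
  refine ⟨cj[k⁻¹] S, syl_conj_mem hS (le_normalizer trivial), conj_le_iff_forall.2 fun y hy => mem_cent1.2 ?_⟩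
  refine (commute_conj_iff k).1 ?_
  rw [e]
  simpa [mul_assoc] using (show Commute y z from hz.2 y hy)

/-- the centralizer has odd index -/
theorem odd_index : Odd (C1[φ (td (-1) (-1))]).index := by
  obtain ⟨S, hS, le⟩ := h.exists_syl_cent
  have := syl_not_dvd Nat.prime_two hS
  rw [relIndex_top_right] at this
  exact Nat.not_even_iff_odd.1 fun e => this ((even_iff_two_dvd.1 e).trans (index_dvd_of_le le))

/-- one class of involutions -/
theorem conj_t (e : x * x = 1) (e1 : x ≠ 1) : IsConj (φ (td (-1) (-1))) x := by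
  obtain ⟨S, hS, le⟩ := h.exists_syl_cent
  obtain ⟨k, -, n⟩ := syl_exists_conj_le Nat.prime_two hS (Q := zpowers x)
    (PG.isPGroup_zpowers_of_pow_eq_one (k := 1) (by rw [pow_one, sq, e])) le_top
  exact (h.invol_conj (x := k * x * k⁻¹) (by rw [conj_mul, e]; simp) (by simpa using e1)
    (mem_cent1.1 (le (conj_le_iff_forall.1 n x (mem_zpowers x))))).trans (isConj_iff.2 ⟨k⁻¹, by group⟩)

end Hy

end Cfsg.Agent.B85
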