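import Cfsg.Agent.B85.Hy
import Cfsg.Agent.B85.Gen
import Cfsg.Agent.Cl.DicksonCount

/-! # The normalizer of a root group -/

set_option autoImplicit false

namespace Cfsg.Agent.B85

open Cfsg.Agent.GT Cfsg.Agent.Cl Cfsg.Agent.Cl.Uni Cfsg.Agent.TT Cfsg.Agent.B84 Subgroup

variable {F G : Type*} [Field F] [StarRing F] [NeZero (2 : F)] [Group G] {q : ℕ} {φ : U2 F →* G} {g x y : G}
  {A : U2 F} {a : Fˣ} {P Y : Subgroup G}

omit [NeZero (2 : F)] in
theorem w_inv : (φ ww)⁻¹ = φ ww := by rw [← map_inv, ww_inv]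
omit [NeZero (2 : F)] in
theorem w_sq : φ ww * φ ww = 1 := by rw [← map_mul, ww_mul, map_one]
theorem t_Kt : φ (td (-1) (-1)) ∈ Kt φ := td_neg (F := F) ▸ kk_mem _
theorem kk_t (a : Fˣ) : Commute (φ (kk a)) (φ (td (-1) (-1))) := (Z_comm _ _).symm
omit [NeZero (2 : F)] in
theorem cj_ww (a : Fˣ) : φ ww * φ (kk a) * (φ ww)⁻¹ = φ (kk (star a)⁻¹) := by
  rw [← map_inv, ← map_mul, ← map_mul, ww_kk]
omit [NeZero (2 : F)] in
theorem bor_mem (c : skewAdjoint F) (a : Fˣ) : φ (xu c * kk a) ∈ N[RU φ] :=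
  map_mul φ _ _ ▸ mul_mem (le_normalizer (xu_mem c)) (Kt_RU (kk_mem a))

/-- `-1` is generated by two opposite root groups -/
theorem neg_eq {c : skewAdjoint F} (hc : c ≠ 0) : ∃ c', td (-1) (-1) = (xu c * (ww * xu c' * ww⁻¹) * xu c) ^ 2 := by
  have : (c : F) ≠ 0 := fun n => hc (Subtype.ext n)
  refine ⟨⟨-(c : F)⁻¹, by simp [skewAdjoint.mem_iff, sk]⟩, ?_⟩
  rw [sq]
  ext <;> simp [this]

namespace Hy

variable (h : Hy q φ g)
include h

theorem ww_not : φ ww ∉ N[RU φ] := fun e =>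
  h.t2_ne (td_ww (F := F) ▸ h.invol_norm e (Z_comm _ _).symm (td_ww (F := F) ▸ tt2) fun n => by
    have := (h.td_eq_one (td_ww (F := F) ▸ n)).1
    exact neg_ne this.symm)

theorem norm_H (e : x ∈ N[RU φ]) (c : Commute x (φ (td (-1) (-1)))) : ∃ c a, x = φ (xu c) * φ (kk a) := by
  obtain ⟨A, rfl⟩ := h.cent.1 c
  obtain ⟨d, a, rfl⟩ := h.norm_RU e
  exact ⟨d, a, map_mul _ _ _⟩

/-- the intersection of two opposite Borel subgroups -/
theorem inter (e : x ∈ N[RU φ]) (e' : φ ww * x * (φ ww)⁻¹ ∈ N[RU φ]) : x ∈ Kt φ := by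
  have wt : φ ww * φ (td (-1) (-1)) * (φ ww)⁻¹ = φ (td (-1) (-1)) := commute_iff_conj.1 (Z_comm _ _).symm
  have c1 := conj_mem_of_mem_norm (norm_le_norm_cent _ e) (Z_RU (φ := φ) (-1))
  have c2 := conj_mem_of_mem_norm (norm_le_norm_cent _ e') (Z_RU (φ := φ) (-1))
  have c : Commute (x * φ (td (-1) (-1)) * x⁻¹) (φ (td (-1) (-1))) := by
    obtain ⟨c, hc⟩ := h.exists_skew
    obtain ⟨c', r⟩ := neg_eq hc
    have a : Commute (x * φ (td (-1) (-1)) * x⁻¹) (φ (xu c)) := (c1 _ (xu_mem c)).symm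
    have b : Commute (x * φ (td (-1) (-1)) * x⁻¹) (φ (ww * xu c' * ww⁻¹)) := by
      refine (commute_conj_iff (φ ww)).1 ?_
      rw [← map_inv, ← map_mul, ← map_mul, show ww * (ww * xu c' * ww⁻¹) * ww⁻¹ = xu c' by
        rw [ww_inv, ← mul_assoc, ← mul_assoc, ww_mul, one_mul, mul_assoc, ww_mul, mul_one], map_inv,
        ← conj_mul, ← conj_mul, wt, ← conj_inv]
      exact (c2 _ (xu_mem c')).symm
    conv_rhs => rw [r, map_pow, map_mul, map_mul]
    exact ((a.mul_right b).mul_right a).pow_right 2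
  obtain ⟨d, a, rfl⟩ := h.norm_H e (commute_iff_conj.2 (h.invol_norm (cent_le_norm _ c1) c (conj_mul_self x tt1)
    (by simpa using h.t1_ne)))
  rw [← map_mul, ← map_inv, ← map_mul, ← map_mul] at e'
  obtain ⟨c', a', r⟩ := h.norm_RU e'
  obtain rfl : d = 0 := Subtype.ext (by simpa using congrArg U2.c r)
  rw [xu_zero, map_one, one_mul]; exact kk_mem a

theorem RU_inf_Kt (e : x ∈ RU φ) (e' : x ∈ Kt φ) : x = 1 := by
  obtain ⟨c, rfl⟩ := mem_RU.1 e
  obtain ⟨a, r⟩ := mem_Kt.1 e'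
  obtain ⟨d, -, r⟩ := h.ker (xu c * (kk a)⁻¹) (by rw [map_mul, map_inv, r, mul_inv_cancel])
  obtain rfl : c = 0 := Subtype.ext (by simpa using congrArg U2.b r)
  rw [xu_zero, map_one]

theorem relIndex_H : (N[RU φ]).relIndex C1[φ (td (-1) (-1))] = q + 1 := by
  have c : Nat.card (comap φ N[RU φ]) = q * ((q + 1) * (q - 1)) := by
    rw [← h.fr.card_units]
    conv_rhs => lhs; rw [← card_skew h.fr]
    rw [← Nat.card_prod]
    refine (Nat.card_congr (Equiv.ofBijective (fun p : skewAdjoint F × Fˣ =>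
      (⟨xu p.1 * kk p.2, bor_mem _ _⟩ : comap φ N[RU φ])) ⟨fun p p' e => ?_, fun A => ?_⟩)).symm
    · have e' : xu p.1 * kk p.2 = xu p'.1 * kk p'.2 := congrArg Subtype.val e
      have : p.2 = p'.2 := Units.ext (by simpa using congrArg U2.a e')
      exact Prod.ext (xu_inj (mul_right_cancel (this ▸ e'))) this
    · obtain ⟨c, a, r⟩ := h.norm_RU A.2
      exact ⟨(c, a), Subtype.ext r.symm⟩
  have := (comap φ N[RU φ]).card_mul_index
  have two := h.fr.two_le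
  rw [c, card_U2 h.fr, index_comap, h.range, show q ^ 2 - 1 = (q + 1) * (q - 1) from Nat.sq_sub_sq q 1] at this
  exact Nat.eq_of_mul_eq_mul_left (show 0 < q * ((q + 1) * (q - 1)) from
    Nat.mul_pos (by omega) (Nat.mul_pos (by omega) (by omega))) (this.trans (by ring))

variable [Finite G]

theorem np1 (p : IsPGroup (ringChar F) P) (n : φ (td 1 (-1)) ∈ N[P]) (e : x ∈ P)
    (c : Commute x (φ (td (-1) (-1)))) : x = 1 := by
  obtain ⟨_, ⟨B, rfl⟩, le⟩ := syl_exists_conj_le h.prime_p h.syl_RU (Q := P ⊓ φ.range) (p.to_le inf_le_left) inf_le_right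
  have m : x ∈ φ.range := h.cent.1 c
  obtain ⟨d, r⟩ := mem_RU.1 (conj_le_iff_forall.1 le x ⟨e, m⟩)
  obtain ⟨d', r'⟩ := mem_RU.1 (conj_le_iff_forall.1 le _ ⟨conj_mem_of_mem_norm n e,
    φ.range.mul_mem (φ.range.mul_mem ⟨_, rfl⟩ m) (φ.range.inv_mem ⟨_, rfl⟩)⟩)
  by_contra x1
  have := (h.conj_iff (A := B * td 1 (-1) * B⁻¹) ((dt_xu d).trans (dt_xu d').symm)).1 (by
    rw [r, r', map_mul, map_mul, map_inv]; group)
  obtain ⟨c, a, s⟩ := eq_bor (comm_xu (fun z => x1 (by rwa [z, xu_zero, map_one, eq_comm, conj_eq_one_iff] at r))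
    (mul_inv_eq_iff_eq_mul.1 this))
  have := h.invol_norm (s ▸ bor_mem c a) (Z_comm _ _).symm (by
    rw [map_mul, map_mul, map_inv]; exact conj_mul_self _ tt2) fun z => neg_ne (h.td_eq_one (by
      rwa [map_mul, map_mul, map_inv, conj_eq_one_iff] at z)).1.symm
  rw [map_mul, map_mul, map_inv, ← commute_iff_conj.1 (Z_comm (-1) B).symm] at this
  exact h.t2_ne (by simpa using this)

/-- no nontrivial `p`-subgroup is normalised by the four-group -/
theorem np (p : IsPGroup (ringChar F) P) (n1 : φ (td (-1) (-1)) ∈ N[P]) (n2 : φ (td 1 (-1)) ∈ N[P]) (e : x ∈ P) :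
    x = 1 := by
  haveI := Fact.mk h.prime_p
  obtain ⟨k, hk⟩ := p.exists_card_eq
  obtain ⟨c, hc, a, ha, i, hi, c1, c2, -, c3, -, rfl⟩ := four (hk ▸ (h.odd.of_dvd_nat h.p_dvd).pow) tt1 tt2 T_comm n1 n2 e
  rw [h.np1 p n2 hc c1, (h.conj g).np1 p (x := a) (by simpa [h.g2, ← t12] using mul_mem n1 n2) ha
    (by simpa [h.g1] using c2), (h.conj g⁻¹).np1 p (x := i) (by simpa [← h.g1, mul_assoc] using n1) hi
    (by rw [t12] at c3; simpa [← h.g3, mul_assoc] using c3)]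
  simp

/-- real elements of the torus centralise no `p`-element -/
theorem cent_k (hs : star (a : F) = a) (h1 : a * a ≠ 1) (p : IsPGroup (ringChar F) P) (e : x ∈ P)
    (c : Commute x (φ (kk a))) : x = 1 := by
  have k : ∀ x ∈ C1[φ (kk a)], Commute x (φ (td (-1) (-1))) → ∃ b, x = φ (kk b) := fun x e c => by
    obtain ⟨A, rfl⟩ := h.cent.1 c
    have e' := (h.commute_iff.1 (mem_cent1.1 e)).eq
    have n : (a : F) * a - 1 ≠ 0 := fun n => h1 (Units.ext (sub_eq_zero.1 n))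
    have e1 := congrArg U2.b e'
    have e2 := congrArg U2.c e'
    simp [hs] at e1 e2
    field_simp at e1 e2
    obtain ⟨b, rfl⟩ := eq_kk ((mul_eq_zero.1 (show A.c * ((a : F) * a - 1) = 0 by
      linear_combination e2)).resolve_right n) ((mul_eq_zero.1 (show A.b * ((a : F) * a - 1) = 0 by
      linear_combination -e1)).resolve_right n)
    exact ⟨b, rfl⟩
  obtain ⟨Y, o, -, nY, od, -⟩ := compl2 (M := C1[φ (kk a)]) tt1 h.t1_ne (mem_cent1.2 (kk_t a).symm)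
    (fun x e c => (k x e c).elim fun b r => h.invol_norm (r ▸ Kt_RU (kk_mem b)) c)
    fun x e y e' c c' => (k x e c).elim fun b r => (k y e' c').elim fun b' r' => r ▸ r' ▸ kk_comm b b'
  have n2 : φ (td 1 (-1)) ∈ N[C1[φ (kk a)]] := mem_normalizer_of_conj_le (conj_le_iff_forall.2 fun y e =>
    mem_cent1.2 (by
      have := (commute_conj_iff (φ ww)).2 (show Commute y _ from mem_cent1.1 e)
      rw [cj_ww, show star a = a from Units.ext hs, map_inv, map_inv] at this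
      rw [td_ww]
      exact Commute.inv_right_iff.1 this))
  have p2 : IsPGroup 2 ↥(zpowers (φ (td (-1) (-1))) ⊔ zpowers (φ (td 1 (-1)))) :=
    (PG.isPGroup_zpowers_of_pow_eq_one (k := 1) (by rw [pow_one, sq, tt1])).to_sup_of_normal_right'
      (PG.isPGroup_zpowers_of_pow_eq_one (k := 1) (by rw [pow_one, sq, tt2]))
      (zpowers_le.2 (cent_le_norm _ (by rintro _ ⟨n, rfl⟩; exact T_comm.zpow_left n)))
  obtain ⟨S, hS, nS⟩ := coprime_exists_syl h.prime_p (Or.inr (solvable_of_isPGroup Nat.prime_two p2))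
    (sup_le (zpowers_le.2 (nY (le_normalizer (mem_cent1.2 (kk_t a).symm)))) (zpowers_le.2 (nY n2))) (cop2 o p2)
  haveI := Fact.mk h.prime_p
  obtain ⟨k, hk⟩ := p.exists_card_eq
  obtain ⟨y, -, le⟩ := syl_exists_conj_le h.prime_p hS (p.to_le (zpowers_le.2 e)) (zpowers_le.2 (od x (mem_cent1.2 c)
    (odd_of_mem (hk ▸ (h.odd.of_dvd_nat h.p_dvd).pow) e)))
  exact conj_eq_one_iff.1 (h.np (syl_isPGroup h.prime_p hS) (nS (mem_sup_left (mem_zpowers _)))
    (nS (mem_sup_right (mem_zpowers _))) (conj_le_iff_forall.1 le x (mem_zpowers x)))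

theorem exists_Y : ∃ Y : Subgroup G, Odd (Nat.card Y) ∧ Y ≤ C[RU φ] ∧ N[RU φ] ≤ N[Y] ∧ RU φ ≤ Y ∧
    ∀ n ∈ N[RU φ], ∃ y ∈ Y, Commute (y⁻¹ * n) (φ (td (-1) (-1))) := by
  obtain ⟨Y, o, le, nY, od, d⟩ := compl2 (M := C[RU φ]) tt1 h.t1_ne (Z_RU _)
    (fun x e => h.invol_norm (cent_le_norm _ e)) fun x e y e' c c' => by
      obtain ⟨A, rfl⟩ := h.cent.1 c
      obtain ⟨d, a, rfl⟩ := h.cent_RU e
      obtain ⟨B, rfl⟩ := h.cent.1 c'
      rw [map_mul]
      exact Commute.mul_left (e' _ (xu_mem d)) (Z_comm _ _)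
  exact ⟨Y, o, le, (norm_le_norm_cent _).trans nY, fun x e => od x (RU_comm e) (odd_of_mem h.odd_RU e),
    fun n e => d n (norm_le_norm_cent _ e)⟩

theorem inf_eq (p : IsPGroup (ringChar F) P) (le : RU φ ≤ P) : P ⊓ C1[φ (td (-1) (-1))] = RU φ :=
  syl_eq_of_le h.prime_p h.syl_RU (p.to_le inf_le_left) (inf_le_right.trans h.range.ge)
    (le_inf le (RU_le.trans h.range.le))

/-- an invariant Sylow subgroup -/
theorem exists_P (o : Odd (Nat.card Y)) (le : Y ≤ C[RU φ]) (nY : N[RU φ] ≤ N[Y]) (XY : RU φ ≤ Y) :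
    ∃ P, IsPiHallOf {ringChar F} P Y ∧ RU φ ≤ P ∧ φ (td (-1) (-1)) ∈ N[P] ∧
      (P ≠ RU φ → q ^ 2 ∣ (Inv P (φ (td (-1) (-1)))).ncard) := by
  have p2 : IsPGroup 2 (zpowers (φ (td (-1) (-1)))) :=
    PG.isPGroup_zpowers_of_pow_eq_one (k := 1) (by rw [pow_one, sq, tt1])
  have s := Or.inr (a := Group.IsSolvable Y) (solvable_of_isPGroup Nat.prime_two p2)
  have tY := zpowers_le.2 (nY (Kt_RU t_Kt))
  obtain ⟨P, hP, tP, XP⟩ := coprime_exists_syl_ge h.prime_p s tY (cop2 o p2) XY h.isP_RU (zpowers_le.2 (Kt_RU t_Kt))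
  have pP := syl_isPGroup h.prime_p hP
  have two := h.fr.two_le
  refine ⟨P, hP, XP, tP (mem_zpowers _), fun ne => ?_⟩
  have kP : ∀ a : Fˣ, a ^ (2 * (q - 1)) = 1 → φ (kk a) ∈ N[P] := fun a ha => by
    obtain ⟨c, ⟨cY, cc⟩, r⟩ := coprime_syl_conj h.prime_p s tY (cop2 o p2) hP
      (syl_conj_mem hP (nY (Kt_RU (kk_mem a)))) tP (zpowers_le.2 (conj_eq_self_iff.1 (by
        rw [← mul_conj, ← (kk_t a).eq, mul_conj, conj_eq_self (tP (mem_zpowers _))])))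
    obtain ⟨A, rfl⟩ := h.cent.1 (show Commute c _ from (cc _ (mem_zpowers _)).symm)
    obtain ⟨c, b, rfl⟩ := h.cent_RU (le cY)
    rw [← td_comm, map_mul] at r cY
    rw [mul_conj, conj_eq_self_of_mem (XP (xu_mem c))] at r
    have m : (φ (td b b))⁻¹ * φ (kk a) ∈ N[P] := conj_eq_self_iff.1 (by rw [mul_conj, r, inv_conj_conj])
    have := pow_mem m (orderOf (φ (td b b)))
    rw [(Z_comm _ _).inv_left.mul_pow, inv_pow, pow_orderOf_eq_one, inv_one, one_mul] at this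
    refine zpowers_le.2 this (mem_zpowers_pow_iff.2 (Nat.Coprime.coprime_dvd_right (m := 2 * (q - 1))
      (orderOf_dvd_of_pow_eq_one (by rw [← map_pow, ← map_pow, ha, map_one, map_one])) ?_))
    have o1 := odd_of_mem o ((mul_mem_cancel_right (XY (xu_mem c))).1 cY)
    have o2 : orderOf (φ (td b b)) ∣ q + 1 := orderOf_dvd_of_pow_eq_one (by
      rw [← map_pow, td_pow, ← card_un h.fr, pow_card_eq_one', td_one, map_one])
    refine Nat.Coprime.mul_right (Nat.coprime_two_right.2 o1) (Nat.coprime_of_dvd fun k pk d1 d2 => ?_)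
    have := (Nat.prime_dvd_prime_iff_eq pk Nat.prime_two).1 ((Nat.dvd_add_right d2).1
      (show q - 1 + 2 = q + 1 by omega ▸ d1.trans o2))
    exact Nat.not_even_iff_odd.2 o1 (even_iff_two_dvd.2 (this ▸ d1))
  haveI := h.fr.fin
  obtain ⟨b, hb⟩ : ∃ b : Fˣ, orderOf b = 2 * (q - 1) := by
    obtain ⟨b, -, hb⟩ := h.fr.exists_gen
    obtain ⟨k, hk⟩ := h.odd
    exact ⟨b ^ (k + 1), by
      rw [orderOf_pow_of_dvd (by omega) (hb ▸ Dvd.intro (2 * (q - 1)) (by rw [hk]; ring)), hb]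
      exact Nat.div_eq_of_eq_mul_right (by omega) (by rw [hk]; ring)⟩
  have zb : ∀ a ∈ zpowers b, a ^ (2 * (q - 1)) = 1 := fun a e => by
    rw [← hb, ← Nat.card_zpowers]; exact congrArg Subtype.val (pow_card_eq_one' (x := (⟨a, e⟩ : zpowers b)))
  letI : MulAction (zpowers b) G := MulAction.compHom G (MulAut.conj.comp ((φ.comp kk).comp (zpowers b).subtype))
  have d := card_dvd_ncard_of_free (H := zpowers b) (Inv P (φ (td (-1) (-1))) \ {1}) (fun a i e => by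
    change φ (kk a) * i * (φ (kk a))⁻¹ ∈ _
    refine ⟨⟨conj_mem_of_mem_norm (kP _ (zb _ a.2)) e.1.1, ?_⟩, fun z => e.2 (conj_eq_one_iff.1 z)⟩
    rw [conj_inv, ← e.1.2, ← conj_mul, ← conj_mul, ← conj_inv, commute_iff_conj.1 (kk_t _).symm]) fun a i e c => by
      replace c : Commute (φ (kk a)) i := commute_iff_conj.2 c
      have nt : ¬ Commute (φ (td (-1) (-1))) i := fun c => e.2 (sq_inj (odd_of_mem o (syl_le hP e.1.1)) (by simp)
        (by rw [mul_one, ← eq_inv_iff_mul_eq_one, ← e.1.2, commute_iff_conj.1 c]))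
      have sq : ∀ a : Fˣ, a * a = 1 → Commute (φ (kk a)) i → a = 1 := fun a r c =>
        (mul_self_eq_one_iff.1 (congrArg Units.val r)).elim (fun r => Units.ext r) fun r =>
          (nt (by rwa [td_neg, ← show a = -1 from Units.ext r])).elim
      have c2 : Commute (φ (kk (a.1 * a.1))) i := by rw [map_mul, map_mul]; exact c.mul_left c
      refine Subtype.ext (sq _ (sq _ (by_contra fun n => e.2 (h.cent_k ((h.fr.star_eq_iff _).2 ?_) n pP e.1.1
        c2.symm)) c2) c)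
      rw [← _root_.sq, ← pow_mul, zb _ a.2]
  rw [Nat.card_zpowers, hb, Set.ncard_diff_singleton_of_mem (show 1 ∈ Inv P _ from ⟨one_mem _, by simp⟩)] at d
  have c := card_dec' (o.of_dvd_nat (card_dvd_of_le (syl_le hP))) tt1 (tP (mem_zpowers _))
  rw [h.inf_eq pP XP] at c
  haveI := Fact.mk h.prime_p
  obtain ⟨k, hk⟩ := pP.exists_card_eq
  obtain ⟨j, -, hj⟩ := (Nat.dvd_prime_pow h.prime_p).1 (hk ▸ Dvd.intro _ c.symm)
  obtain ⟨f, f0, hf⟩ := h.q_pow
  rw [hj] at d c ⊢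
  rw [hf] at d ⊢
  exact pow_arith h.prime_p.one_lt (Nat.pos_of_ne_zero fun z => ne (eq_of_le_of_card_ge XP (by simp [c, z])).symm) d f0

/-- the structure of the normalizer of the root group -/
theorem local_data : ∃ Y P : Subgroup G, Odd (Nat.card Y) ∧ Y ≤ C[RU φ] ∧ N[RU φ] ≤ N[Y] ∧
    (∀ n ∈ N[RU φ], ∃ y ∈ Y, Commute (y⁻¹ * n) (φ (td (-1) (-1)))) ∧ IsPiHallOf {ringChar F} P Y ∧ RU φ ≤ P ∧
    φ (td (-1) (-1)) ∈ N[P] ∧ (Inv Y (φ (td (-1) (-1)))).ncard * (N[RU φ]).index =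
      (q + 1) * (C1[φ (td (-1) (-1))]).index ∧
    (Inv Y (φ (td (-1) (-1)))).ncard * q + 1 ≤ (N[RU φ]).index ∧
    ((Inv Y (φ (td (-1) (-1)))).ncard * q + 1 = (N[RU φ]).index →
      ∀ x, x ∈ N[RU φ] ∨ ∃ b ∈ N[RU φ], ∃ b' ∈ N[RU φ], x = b * φ ww * b') ∧
    (ringChar F ∣ (C1[φ (td (-1) (-1))]).index → q ^ 2 ∣ (Inv P (φ (td (-1) (-1)))).ncard ∧
      q ^ 2 ∣ (Inv Y (φ (td (-1) (-1)))).ncard) := by
  obtain ⟨Y, o, le, nY, XY, d⟩ := h.exists_Y
  obtain ⟨P, hP, XP, tP, e⟩ := h.exists_P o le nY XY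
  have tY := nY (Kt_RU t_Kt)
  have cB := card_dec o tt1 tY (le.trans (cent_le_norm _)) d
  have rB : (C1[φ (td (-1) (-1))]).relIndex N[RU φ] = (Inv Y (φ (td (-1) (-1)))).ncard :=
    Nat.eq_of_mul_eq_mul_left (card_pos' _) ((card_inf_mul_relIndex _ _).trans (by rw [cB, inf_comm, mul_comm]))
  have cK : Nat.card ↥(N[RU φ] ⊓ C1[φ (td (-1) (-1))]) = q * Nat.card (Kt φ) := by
    rw [← h.card_RU, ← card_sup_of_inf_eq_bot (Or.inr Kt_RU) (eq_bot_iff.2 fun x e => h.RU_inf_Kt e.1 e.2)]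
    congr 2
    refine le_antisymm (fun x e => ?_) (sup_le (le_inf le_normalizer (RU_le.trans h.range.le))
      (le_inf Kt_RU fun _ ⟨a, r⟩ => h.range.le ⟨_, r⟩))
    obtain ⟨c, a, rfl⟩ := h.norm_H e.1 (mem_cent1.1 e.2)
    exact mul_mem_sup (xu_mem c) (kk_mem a)
  have rw' : (cj[φ ww] N[RU φ]).relIndex N[RU φ] = (Inv Y (φ (td (-1) (-1)))).ncard * q := by
    refine Nat.eq_of_mul_eq_mul_left (card_pos' (Kt φ)) ?_
    rw [mul_left_comm, mul_comm _ q, ← cK, ← cB, ← card_inf_mul_relIndex (cj[φ ww] N[RU φ]) N[RU φ]]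
    congr 3
    refine le_antisymm (le_inf ?_ Kt_RU) fun x e => h.inter e.2 (by
      have := mem_conj.1 e.1
      rwa [w_inv] at this ⊢)
    rintro _ ⟨a, rfl⟩
    exact ⟨_, Kt_RU (kk_mem (star a)⁻¹), (cj_ww _).trans (by simp)⟩
  have o2 := two_orbits h.ww_not
  rw [rw'] at o2
  have cY := card_dec' o tt1 tY
  have cP := card_dec' (o.of_dvd_nat (card_dvd_of_le (syl_le hP))) tt1 tP
  rw [h.inf_eq (syl_isPGroup h.prime_p hP) XP, h.card_RU] at cP
  have sX := syl_of_le h.syl_RU (K := Y ⊓ C1[φ (td (-1) (-1))]) (le_inf XY (RU_le.trans h.range.le))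
    (inf_le_right.trans h.range.ge)
  rw [← card_mul_relIndex (syl_le sX), h.card_RU] at cY
  refine ⟨Y, P, o, le, nY, d, hP, XP, tP, ?_, o2.1, o2.2, fun p => ?_⟩
  · rw [← rB, ← h.relIndex_H, ← inf_relIndex_right, relIndex_mul_index inf_le_right, ← inf_relIndex_right N[RU φ],
      relIndex_mul_index inf_le_right, inf_comm]
  have ne : P ≠ RU φ := by
    rintro rfl
    have : ¬ ringChar F ∣ (Inv Y (φ (td (-1) (-1)))).ncard := fun r => syl_not_dvd h.prime_p hP (by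
      rw [← card_mul_relIndex XY, h.card_RU, mul_left_comm] at cY
      rw [Nat.eq_of_mul_eq_mul_left (by have := h.fr.two_le; omega) cY]
      exact r.mul_right _)
    have := syl_not_dvd h.prime_p (syl_top_of_norm_le h.prime_p (syl_trans h.prime_p (syl_of_le h.syl_RU
      (K := C1[φ (td (-1) (-1))] ⊓ N[RU φ]) (le_inf (RU_le.trans h.range.le) le_normalizer)
      (inf_le_left.trans h.range.ge)) inf_le_right (by rwa [inf_relIndex_right, rB])) le_rfl)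
    rw [relIndex_top_right] at this
    exact this (p.trans (index_dvd_of_le (RU_le.trans h.range.le)))
  refine ⟨e ne, ?_⟩
  have := card_dvd_of_le (syl_le hP)
  rw [cP, cY, mul_left_comm, mul_comm _ q] at this
  obtain ⟨f, -, hf⟩ := h.q_pow
  exact Nat.Coprime.dvd_of_dvd_mul_right (hf ▸ (((Nat.Prime.coprime_iff_not_dvd h.prime_p).2
    (syl_not_dvd h.prime_p sX)).pow_left f).pow_left 2)
    ((e ne).trans (Nat.dvd_of_mul_dvd_mul_left (by have := h.fr.two_le; omega) this))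

theorem sq_dvd (p : ringChar F ∣ (C1[φ (td (-1) (-1))]).index) : q ^ 2 ∣ (C1[φ (td (-1) (-1))]).index := by
  obtain ⟨Y, P, -, -, -, -, -, -, -, e, -, -, d⟩ := h.local_data
  exact Nat.Coprime.dvd_of_dvd_mul_left (Nat.Coprime.pow_left 2 (by simp)) (e ▸ (d p).2.mul_right _)

/-- the doubly transitive action on the conjugates of the root group -/
theorem two_trans (e : (C1[φ (td (-1) (-1))]).index = q ^ 2 * (q ^ 2 - q + 1)) : ∃ Q : Subgroup G, RU φ ≤ Q ∧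
    Q ≤ C[RU φ] ∧ Nat.card Q = q ^ 3 ∧ Kt φ ≤ N[Q] ∧ (∀ n ∈ N[RU φ], ∃ y ∈ Q, ∃ a, n = y * φ (kk a)) ∧
    (∀ y ∈ Q, Commute y (φ (td (-1) (-1))) → y ∈ RU φ) ∧ (N[RU φ]).index = q ^ 3 + 1 ∧
    (∀ b ∈ N[RU φ], φ ww * b * (φ ww)⁻¹ ∈ N[RU φ] → b ∈ Kt φ) ∧
    ∀ x, x ∈ N[RU φ] ∨ ∃ y ∈ Q, ∃ b ∈ N[RU φ], x = y * φ ww * b := by
  obtain ⟨Y, P, o, le, nY, dc, hP, XP, tP, e1, e2, e3, d⟩ := h.local_data
  have two := h.fr.two_le
  obtain ⟨⟨k, d1⟩, ⟨m, d2⟩⟩ := d (e ▸ (h.p_dvd.trans (dvd_pow_self q two_ne_zero)).mul_right _)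
  have sub : Inv P (φ (td (-1) (-1))) ⊆ Inv Y (φ (td (-1) (-1))) := fun x e => ⟨syl_le hP e.1, e.2⟩
  have k0 : 0 < k := Nat.pos_of_mul_pos_left (d1 ▸ (Set.ncard_pos (Set.toFinite _)).2
    ⟨1, show 1 ∈ Inv P (φ (td (-1) (-1))) from ⟨one_mem _, by simp⟩⟩)
  have km := Set.ncard_le_ncard sub
  rw [d2, e, mul_left_comm, mul_assoc] at e1
  replace e1 := Nat.eq_of_mul_eq_mul_left (by positivity) e1
  rw [show (q + 1) * (q ^ 2 - q + 1) = q ^ 3 + 1 by
    zify [show q ≤ q ^ 2 by nlinarith]; ring] at e1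
  rw [d1, d2] at km
  replace km := Nat.le_of_mul_le_mul_left km (by positivity)
  rw [d2] at e2 e3
  obtain rfl : m = 1 := by
    by_contra n
    have : 2 ≤ m := by omega
    have : q ^ 2 * 2 * q + 1 ≤ (N[RU φ]).index := le_trans (by gcongr) e2
    nlinarith [show 0 < q ^ 3 by positivity]
  obtain rfl : k = 1 := by omega
  rw [one_mul] at e1
  have eq := Set.eq_of_subset_of_ncard_le sub (d2.trans d1.symm).le
  have oP := o.of_dvd_nat (card_dvd_of_le (syl_le hP))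
  have iP := h.inf_eq (syl_isPGroup h.prime_p hP) XP
  have B : ∀ n ∈ N[RU φ], ∃ y ∈ P, ∃ a, n = y * φ (kk a) := fun n e => by
    obtain ⟨y, hy, c⟩ := dc n e
    obtain ⟨i, hi, c'⟩ := dec o tt1 (nY (Kt_RU t_Kt)) hy
    obtain ⟨c, a, r⟩ := h.norm_H (x := i⁻¹ * n) (mul_mem (inv_mem (cent_le_norm _ (le hi.1))) e) (by
      simpa [mul_assoc] using c'.mul_left c)
    exact ⟨_, mul_mem (eq.ge hi).1 (XP (xu_mem c)), a, by rw [mul_assoc, ← r, mul_inv_cancel_left]⟩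
  refine ⟨P, XP, (syl_le hP).trans le, ?_, ?_, B, fun y e c => iP.le ⟨e, mem_cent1.2 c⟩, e1,
    fun b => h.inter, fun x => (e3 (by rw [e1]; ring) x).imp_right fun ⟨b, hb, b', hb', r⟩ => ?_⟩
  · rw [card_dec' oP tt1 tP, iP, h.card_RU, d1]; ring
  · refine le_norm_iff.2 ?_
    rintro _ ⟨a, rfl⟩ y hy
    obtain ⟨i, hi, c⟩ := dec oP tt1 tP hy
    change φ (kk a) * y * (φ (kk a))⁻¹ ∈ P
    rw [← mul_inv_cancel_left i y, ← conj_mul]
    refine mul_mem (eq.ge ⟨conj_mem_of_mem_norm (nY (Kt_RU (kk_mem a))) (sub hi).1, ?_⟩).1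
      (XP (conj_mem_of_mem_norm (Kt_RU (kk_mem a)) (iP.le ⟨P.mul_mem (P.inv_mem hi.1) hy, mem_cent1.2 c⟩)))
    rw [conj_inv, ← hi.2, ← conj_mul, ← conj_mul, ← conj_inv, commute_iff_conj.1 (kk_t _).symm]
  · obtain ⟨y, hy, a, rfl⟩ := B b hb
    refine ⟨y, hy, _, mul_mem (Kt_RU (kk_mem (star a)⁻¹)) hb', ?_⟩
    rw [r, show φ (kk a) = φ ww * φ (kk (star a)⁻¹) * (φ ww)⁻¹ from ((cj_ww _).trans (by simp)).symm]
    group

end Hy

end Cfsg.Agent.B85
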