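import Cfsg.Agent.B85.Hy

/-! # Reduction modulo the central subgroup, and the setting from the hypothesis -/

set_option autoImplicit false

namespace Cfsg.Agent.B85

open Cfsg.Agent.GT Cfsg.Agent.Cl Cfsg.Agent.Cl.Uni Cfsg.Agent.TT Cfsg.Agent.B84 Subgroup

universe u

variable {F : Type*} {G : Type u} [Field F] [StarRing F] [NeZero (2 : F)] [Group G] [Finite G] {q : ℕ}
  {φ : U2 F →* G} {g : G}

theorem Hy.dvd_of (h : Hy q φ g) {p : ℕ} (C4 : ∀ (Q : Type u) [Group Q] [Finite Q] (ψ : U2 F →* Q) (k : Q),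
    Hy q ψ k → D1 ψ k → p ∣ (C1[ψ (td (-1) (-1))]).index) : p ∣ (C1[φ (td (-1) (-1))]).index := by
  obtain ⟨D, hD⟩ : ∃ D : Subgroup G, ∀ x, x ∈ D ↔ (∃ a, x = φ (td a a)) ∧ Commute g x :=
    ⟨(φ.comp (tdH.comp ((MonoidHom.id _).prod (MonoidHom.id _)))).range ⊓ C1[g], fun x =>
      and_congr (exists_congr fun _ => eq_comm) (mem_cent1.trans eq_comm)⟩
  have hφ : ∀ A, φ A ∈ C[D] := fun A x e => ((hD x).1 e).1.elim fun a r => r ▸ Z_comm a A
  have hg : g ∈ C[D] := fun x e => ((hD x).1 e).2.symm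
  have d2 : ∀ x ∈ D, x * x = 1 → x = 1 := fun x e xx => by
    by_contra x1
    obtain ⟨⟨a, rfl⟩, c⟩ := (hD x).1 e
    rw [h.invol_norm (cent_le_norm _ (Z_RU a)) T_comm xx x1, commute_iff_conj, h.g1] at c
    exact h.t2_ne c
  have oD : Odd (Nat.card D) := Nat.not_even_iff_odd.1 fun e => by
    obtain ⟨z, hz, o⟩ := exists_mem_orderOf_eq Nat.prime_two (even_iff_two_dvd.1 e)
    exact ne_one_of_orderOf o (d2 z hz (mul_self_of_orderOf o))
  haveI := normal_subgroupOf (cent_le_norm D)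
  obtain ⟨f, sf, kf⟩ : ∃ f : C[D] →* C[D] ⧸ D.subgroupOf C[D], Function.Surjective f ∧ ∀ x, f x = 1 ↔ x.1 ∈ D :=
    ⟨QuotientGroup.mk' _, QuotientGroup.mk'_surjective _, fun x => QuotientGroup.eq_one_iff x⟩
  have cf : ∀ x y, Commute (f x) (f y) → x.1 * y.1 * x.1⁻¹ * y.1⁻¹ ∈ D := fun x y c =>
    (kf (x * y * x⁻¹ * y⁻¹)).1 (by simp only [map_mul, map_inv, c.eq, mul_inv_cancel_right, mul_inv_cancel])
  have lift : ∀ x y : C[D], ∀ n, y.1 ^ n = 1 → (∀ d ∈ D, d ^ n = 1 → d = 1) → Commute (f x) (f y) →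
      Commute x.1 y.1 := fun x y n e o c => by
    have m := cf x y c
    have : (x.1 * y.1 * x.1⁻¹ * y.1⁻¹ * y.1) ^ n = 1 := by rw [inv_mul_cancel_right, conj_pow, e]; simp
    rw [(show Commute _ _ from y.2 _ m).mul_pow, e, mul_one] at this
    exact commute_iff_conj.2 (mul_inv_eq_one.1 (o _ m this))
  have l2 : ∀ x : C[D], Commute (f x) (f ⟨_, hφ (td (-1) (-1))⟩) → ∃ A, φ A = x.1 := fun x e =>
    h.cent.1 (lift x ⟨_, hφ _⟩ 2 (by rw [sq]; exact tt1) (fun d m e => d2 d m (by rwa [← sq])) e)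
  have h' : Hy q (f.comp (φ.codRestrict _ hφ)) (f ⟨g, hg⟩) := by
    refine ⟨h.fr, h.odd, ?_, fun A e => ?_, ?_, ?_⟩
    · ext x
      obtain ⟨x, rfl⟩ := sf x
      refine ⟨?_, fun e => ?_⟩
      · rintro ⟨A, e⟩
        exact e ▸ mem_cent1.2 (Z_comm _ _).symm
      obtain ⟨A, r⟩ := l2 x (mem_cent1.1 e)
      exact ⟨A, congrArg f (Subtype.ext r)⟩
    · have m : φ A ∈ D := (kf _).1 e
      obtain ⟨a, r⟩ := ((hD _).1 m).1
      obtain ⟨c, -, r⟩ := h.ker (A * (td a a)⁻¹) (by rw [map_mul, map_inv, r, mul_inv_cancel])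
      rw [mul_inv_eq_iff_eq_mul, td_mul] at r
      have := h.td_eq_one (a := (c * a) ^ orderOf (φ A)) (b := (c * a) ^ orderOf (φ A)) (by
        rw [← td_pow, ← r, map_pow, pow_orderOf_eq_one])
      exact ⟨_, ((odd_of_mem oD m).mul this.2).of_dvd_nat (orderOf_dvd_of_pow_eq_one (by
        rw [pow_mul, pow_orderOf_eq_one])), r⟩
    · rw [MonoidHom.comp_apply, ← map_inv, ← map_mul, ← map_mul]; exact congrArg f (Subtype.ext h.g1)
    · rw [MonoidHom.comp_apply, ← map_inv, ← map_mul, ← map_mul]; exact congrArg f (Subtype.ext h.g2)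
  have d1 : D1 (f.comp (φ.codRestrict _ hφ)) (f ⟨g, hg⟩) := fun a c => (kf _).2 ((hD _).2 ⟨⟨a, rfl⟩, by
    obtain ⟨i, hi⟩ := exists_i h.fr
    have m : g * φ (td a a) * g⁻¹ * (φ (td a a))⁻¹ ∈ D := cf ⟨g, hg⟩ ⟨_, hφ _⟩ c
    have c1 := Z_comm (φ := φ) a
    have c2 : Commute (φ (td a a)) (g * φ (kk i) * g⁻¹) := by
      rw [show φ (td a a) = (g * φ (td a a) * g⁻¹ * (φ (td a a))⁻¹)⁻¹ * (g * φ (td a a) * g⁻¹) by group]
      exact Commute.mul_left (mul_mem (mul_mem hg (hφ _)) (inv_mem hg) _ (inv_mem m))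
        ((commute_conj_iff g).2 (c1 _))
    obtain ⟨x, y, e1⟩ := h.wg_sq hi
    obtain ⟨z, w, e2⟩ := h.g_cube
    have := (((c1 (td z w)).mul_right (c1 (td x y)).inv_right).mul_right (c1 (kk i))).mul_right c2
    rw [← e1, ← e2, show g ^ 3 * (φ (kk i) * g * (φ (kk i) * g))⁻¹ * φ (kk i) * (g * φ (kk i) * g⁻¹) = g by group]
      at this
    exact this.symm⟩)
  refine (C4 _ _ _ h' d1).trans ?_
  rw [← index_comap_of_surjective _ sf, show comap f C1[(f.comp (φ.codRestrict C[D] hφ)) (td (-1) (-1))] =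
    (C1[φ (td (-1) (-1))]).subgroupOf C[D] from
    Subgroup.ext fun x => ⟨fun e => mem_cent1.2 (h.cent.2 (l2 x (mem_cent1.1 e))), fun e => mem_cent1.2
      (Commute.map (show Commute x ⟨_, hφ _⟩ from Subtype.ext (mem_cent1.1 e)) f)⟩]
  exact relIndex_dvd_index_of_le (h.range ▸ fun _ ⟨A, e⟩ => e ▸ hφ A)

theorem exists_hy [IsSimpleGroup G] (H : IsFrob F q) (hq : Odd q) (Z : Subgroup (Cfsg.GU 2 F q)) [Z.Normal]
    (hZc : Z ≤ center _) (hZo : Odd (Nat.card Z)) {t : G} (ht : orderOf t = 2) (e : C1[t] ≃* Cfsg.GU 2 F q ⧸ Z) :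
    ∃ (φ : U2 F →* G) (g : G), Hy q φ g := by
  obtain ⟨θ⟩ := exists_equiv H
  obtain ⟨φ, rg, kz⟩ : ∃ φ : U2 F →* G, φ.range = C1[t] ∧ ∀ A, φ A = 1 → θ A ∈ Z :=
    ⟨(C1[t]).subtype.comp (e.symm.toMonoidHom.comp ((QuotientGroup.mk' Z).comp θ.toMonoidHom)), by
      rw [MonoidHom.range_comp, MonoidHom.range_eq_top.2 (e.symm.surjective.comp
        ((QuotientGroup.mk'_surjective Z).comp θ.surjective)), ← MonoidHom.range_eq_map, range_subtype],
      fun A r => (QuotientGroup.eq_one_iff _).1 (e.symm.map_eq_one_iff.1 (Subtype.ext r))⟩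
  have ker : ∀ A, φ A = 1 → ∃ c : unitary F, Odd (orderOf c) ∧ A = td c c := fun A r => by
    obtain ⟨c, rfl⟩ := central H.nt (A := A) fun B => θ.injective (by
      rw [map_mul, map_mul]; exact (mem_center_iff.1 (hZc (kz A r)) _).symm)
    exact ⟨c, (odd_of_mem hZo (kz _ r)).of_dvd_nat (orderOf_dvd_of_pow_eq_one
      (td_inj.1 ((td_pow _ _ _).symm.trans ((θ.injective (by
        rw [map_pow, pow_orderOf_eq_one, map_one])).trans td_one.symm))).1), rfl⟩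
  have cm : ∀ A B, Commute (φ A) (φ B) → Commute A B := fun A B e => by
    obtain ⟨c, ⟨k, hk⟩, r⟩ := ker (A * B * (B * A)⁻¹) (by rw [map_mul, map_inv, map_mul, map_mul, e.eq, mul_inv_cancel])
    have d := congrArg dt r
    rw [dt_td, map_mul, map_inv, map_mul, map_mul, mul_comm (dt A), mul_inv_cancel] at d
    have := pow_orderOf_eq_one c
    rw [hk, pow_succ, pow_mul, sq, ← d, one_pow, one_mul] at this
    exact mul_inv_eq_one.1 (by rw [r, this, td_one])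
  have iv : ∀ x, x * x = 1 → x ≠ 1 → Commute x t →
      x = φ (td (-1) (-1)) ∨ ∃ B, x = φ B * φ (td 1 (-1)) * (φ B)⁻¹ := fun x e e1 c => by
    obtain ⟨A, rfl⟩ := rg.ge (mem_cent1.2 c)
    obtain ⟨c, ⟨k, hk⟩, o⟩ := ker (A * A) (by rw [map_mul, e])
    have m : φ (A ^ (2 * k + 1)) = φ A := by rw [map_pow, pow_succ, pow_mul, sq, e, one_pow, one_mul]
    rw [← m] at e1 ⊢
    refine (invol_cases H (A := A ^ (2 * k + 1)) ?_ fun n => e1 (by rw [n, map_one])).imp (congrArg φ)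
      fun ⟨B, n⟩ => ⟨B, by rw [n, map_mul, map_mul, map_inv]⟩
    rw [← (Commute.refl A).mul_pow, o, td_pow, ← hk, pow_orderOf_eq_one, td_one]
  have ct : ∀ A, Commute (φ A) t := fun A => mem_cent1.1 (rg.le ⟨A, rfl⟩)
  have tt := mul_self_of_orderOf ht
  obtain ⟨i, hi⟩ := exists_i H
  have nc : ¬ Commute (φ (kk i)) (φ (td 1 (-1))) := fun e =>
    neg_ne (td_inj.1 ((kk_swap hi _ _).symm.trans (commute_iff_conj.1 (cm _ _ e)))).1
  obtain rfl : t = φ (td (-1) (-1)) := (iv t tt (ne_one_of_orderOf ht) rfl).resolve_right fun ⟨B, r⟩ =>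
    nc ((commute_conj_iff (φ B)).1 (by rw [← r, ← map_inv, ← map_mul, ← map_mul]; exact ct _))
  obtain ⟨k, c, n⟩ : ∃ k, φ (td (-1) (-1)) * (k * φ (td (-1) (-1)) * k⁻¹) = k * φ (td (-1) (-1)) * k⁻¹ *
      φ (td (-1) (-1)) ∧ k * φ (td (-1) (-1)) * k⁻¹ ≠ φ (td (-1) (-1)) := by
    by_contra! hc
    have key := BS.zstar tt hc
    rcases (piCore_normal {2}ᶜ G).eq_bot_or_eq_top with h | h
    · refine nc (mem_center_iff.1 (((inferInstance : (center G).Normal).eq_bot_or_eq_top.resolve_left fun e =>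
        ne_one_of_orderOf ht (e.le (mem_center_iff.2 fun g => ?_))).ge (mem_top _)) _)
      have := key g
      rw [h, mem_bot, mul_eq_one_iff_inv_eq, inv_of_sq tt] at this
      exact mul_inv_eq_iff_eq_mul.1 this.symm
    · have := IsPiSubgroup.orderOf (piCoreOf_isPi {2}ᶜ (⊤ : Subgroup G)) (x := φ (td (-1) (-1)))
        (by rw [piCoreOf_top, h]; exact mem_top _)
      exact (piNat_single_compl_iff Nat.prime_two).1 this (by rw [ht])
  obtain ⟨B, r⟩ := (iv _ (conj_mul_self k tt) (by simpa using ne_one_of_orderOf ht) c.symm).resolve_left n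
  obtain ⟨k, r⟩ : ∃ k, k * φ (td (-1) (-1)) * k⁻¹ = φ (td 1 (-1)) :=
    ⟨(φ B)⁻¹ * k, by rw [mul_inv_rev, mul_assoc _ k, mul_assoc _ _ (k⁻¹ * _), ← mul_assoc _ k⁻¹, r]; group⟩
  obtain ⟨C, r'⟩ := (iv (k⁻¹ * φ (td (-1) (-1)) * k⁻¹⁻¹) (conj_mul_self _ tt) (mt conj_eq_one_iff.1 (ne_one_of_orderOf ht))
    ((commute_conj_iff k).1 (by rw [r]; simpa [mul_assoc] using T_comm))).resolve_left fun e =>
      nc (by rw [← r, ← e]; simpa [mul_assoc] using ct _)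
  have w := cj_swap (φ := φ) hi
  have e : ∀ x, k * φ C * φ (kk i) * x * (k * φ C * φ (kk i))⁻¹ =
      k * (φ C * (φ (kk i) * x * (φ (kk i))⁻¹) * (φ C)⁻¹) * k⁻¹ := fun x => by group
  refine ⟨φ, k * φ C * φ (kk i), H, hq, rg, ker, by rw [e, w, commute_iff_conj.1 (ct C), r], ?_⟩
  rw [e, w, ← t12, ← conj_mul (b := φ C), ← conj_mul, commute_iff_conj.1 (ct C), r, ← r', T_comm.eq]
  group

end Cfsg.Agent.B85
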