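import Cfsg.Agent.B85.Mo
import Cfsg.Agent.B85.Loc
import Cfsg.Agent.B85.Red
import Cfsg.Agent.B85I.C

/-! # Assembly -/

set_option autoImplicit false

namespace Cfsg.Agent.B85

open Cfsg.Agent.GT Cfsg.Agent.Cl Cfsg.Agent.Cl.Uni Subgroup

universe u v

/-- the characteristic divides the number of involutions -/
def CA : Prop := ∀ (H C K X : Type v) (G : Type u) [Group H] [CommGroup C] [CommGroup K] [CommGroup X] [Group G]
  [Fintype H] [Fintype C] [Fintype K] [Fintype X] [Fintype G] (m : B85C.Mo H C K X) (φ : H →* G) (g : G),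
  B85C.Hy m φ g → B85C.D1 m φ g → ∀ p k : ℕ, p.Prime → m.q = p ^ k → p ∣ (C1[φ (m.dg (m.e, m.e))]).index

/-- the number of involutions -/
def CB : Prop := ∀ (H C K X : Type v) (G : Type u) [Group H] [CommGroup C] [CommGroup K] [CommGroup X] [Group G]
  [Fintype H] [Fintype C] [Fintype K] [Fintype X] [Fintype G] (m : B85C.Mo H C K X) (φ : H →* G) (g : G),
  B85C.Hy m φ g → ∀ p k : ℕ, p.Prime → m.q = p ^ k → m.q ^ 2 ∣ (C1[φ (m.dg (m.e, m.e))]).index →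
    (C1[φ (m.dg (m.e, m.e))]).index = m.q ^ 2 * (m.q ^ 2 - m.q + 1)

theorem main (ca : CA.{u, v}) (cb : CB.{u, v}) {G : Type u} [Group G] [Finite G]
    [IsSimpleGroup G] {F : Type v} [Field F] [Fintype F] (q : ℕ) (hq : Odd q) (hF : Fintype.card F = q ^ 2)
    (Z : Subgroup (Cfsg.GU 2 F q)) [Z.Normal] (hZc : Z ≤ center (Cfsg.GU 2 F q)) (hZo : Odd (Nat.card Z))
    (t : G) (ht : orderOf t = 2) (hC : Nonempty (centralizer ({t} : Set G) ≃* (Cfsg.GU 2 F q ⧸ Z))) :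
    Nonempty (G ≃* Cfsg.PSU 3 F q) := by
  obtain ⟨_, H⟩ := exists_isFrob hF
  haveI : NeZero (2 : F) := ⟨two_ne_zero_of_odd_card (hF ▸ hq.pow)⟩
  obtain ⟨φ, g, h⟩ := exists_hy H hq Z hZc hZo ht hC.some
  haveI := h.finite_U
  haveI := Fintype.ofFinite (U2 F)
  haveI := Fintype.ofFinite (unitary F)
  haveI := Fintype.ofFinite Fˣ
  haveI := Fintype.ofFinite (Multiplicative (skewAdjoint F))
  haveI := Fintype.ofFinite G
  have d := h.sq_dvd (h.dvd_of fun Q _ _ ψ k h' d1 => by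
    haveI := Fintype.ofFinite Q
    obtain ⟨m, e1, hm, dm, e2⟩ := h'.exists_mo
    obtain ⟨n, -, e⟩ := h.q_pow
    exact e2 ▸ ca _ _ _ _ Q m ψ k hm (dm d1) _ n h.prime_p (e1.trans e))
  obtain ⟨m, e1, hm, -, e2⟩ := h.exists_mo
  obtain ⟨n, -, e⟩ := h.q_pow
  have := cb _ _ _ _ G m φ g hm _ n h.prime_p (e1.trans e) (by rwa [e1, e2])
  rw [e1, e2] at this
  obtain ⟨Q, a1, a2, a3, a4, -, a6, a7, a8, a9⟩ := h.two_trans this
  exact B85I.ident h a1 a2 a3 a4 a6 a7 a8 a9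

end Cfsg.Agent.B85
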