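import Cfsg.Agent.B85.Hy
import Cfsg.Agent.B85C.H

/-! # The abstract model is realised by the unitary group -/

set_option autoImplicit false

namespace Cfsg.Agent.B85

open Cfsg.Agent.GT Cfsg.Agent.Cl Cfsg.Agent.Cl.Uni Subgroup

variable {F G : Type*} [Field F] [StarRing F] [Group G] {q : ℕ}

/-- the action of the torus on the root group -/
def act : Fˣ →* MulAut (Multiplicative (skewAdjoint F)) :=
  MonoidHom.mk' (fun a => ⟨⟨fun c => .ofAdd (nsm (a : F) c.toAdd), fun c => .ofAdd (nsm ((a⁻¹ : Fˣ) : F) c.toAdd),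
    fun c => congrArg Multiplicative.ofAdd (Subtype.ext (a2 := c.toAdd) (by
      have := star_ne_zero.2 a.ne_zero; simp; field_simp)),
    fun c => congrArg Multiplicative.ofAdd (Subtype.ext (a2 := c.toAdd) (by
      have := star_ne_zero.2 a.ne_zero; simp; field_simp))⟩,
    fun c d => Subtype.ext (mul_add _ _ _)⟩) fun a b => MulEquiv.ext fun c => Subtype.ext (by
      change ((a * b : Fˣ) : F) * star ((a * b : Fˣ) : F) * _ = a * star (a : F) * (b * star (b : F) * _)
      simp; ring)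

variable [NeZero (2 : F)]

theorem exists_mo (H : IsFrob F q) (hq : Odd q) :
    ∃ m : B85C.Mo (U2 F) (unitary F) Fˣ (Multiplicative (skewAdjoint F)), m.q = q ∧ m.e = -1 ∧ m.dg = tdH := by
  obtain ⟨i, hi⟩ := exists_i H
  obtain ⟨c, hc⟩ := kk_td (a := i * i) (by simp only [Units.val_mul, star_mul']; linear_combination (i * star (i : F) - 1) * hi)
  haveI := H.fin
  have s : ∀ a b, kk i * td c⁻¹ 1 * td a b = td b a * (kk i * td c⁻¹ 1) := fun a b => by
    rw [← kk_swap hi a b, ← mul_assoc, inv_mul_cancel_right, mul_assoc, mul_assoc, td_mul, td_mul, mul_comm a,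
      mul_comm b]
  have w2 : kk i * td c⁻¹ 1 * (kk i * td c⁻¹ 1) = 1 := by
    rw [show kk i * td c⁻¹ 1 * (kk i * td c⁻¹ 1) = kk i * td c⁻¹ 1 * (kk i)⁻¹ * kk (i * i) * td c⁻¹ 1 by
      rw [map_mul]; group, kk_swap hi, hc, td_mul, td_mul]
    simp [td_one]
  refine ⟨⟨q, -1, tdH, kk, xuH, Unitary.toUnits, act, dt, kk i * td c⁻¹ 1, ww, hq, ?_, card_un H, H.card_units,
    card_skew H, inferInstance, by simp, neg_ne, fun a b e => Prod.ext (td_inj.1 e).1 (td_inj.1 e).2,
    fun c => (td_kk c).symm, td_comm, w2, fun a b => ?_, dt_td, fun k b => ?_, fun b k e => ?_, fun k b e => ?_,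
    fun k => ?_, fun A => ?_, fun c b k e => ?_, fun b k e => ?_, fun a d A n e => ?_, fun A => invol_cases H⟩,
    rfl, rfl, rfl⟩
  · have := H.two_le
    obtain ⟨k, rfl⟩ := hq
    omega
  · exact (congrArg (· * _) (s a b)).trans (by rw [mul_assoc, w2, mul_one]; rfl)
  · exact mul_inv_eq_iff_eq_mul.1 (kk_xu k _)
  · obtain rfl : k = 1 := Units.ext (by simpa [xuH] using congrArg U2.a e)
    exact ⟨xu_inj (a := b.toAdd) (b := 0) (by simpa [xuH, xu_zero] using e), rfl⟩
  · refine or_iff_not_imp_left.2 fun n => ?_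
    have : (k : F) * star (k : F) = 1 := mul_right_cancel₀ (fun z => n (Subtype.ext z))
      ((congrArg Subtype.val e).trans (one_mul _).symm)
    exact ⟨⟨k, by rwa [mul_comm], this⟩, Units.ext rfl⟩
  · ext <;> simp [← H.star_eq, -map_pow, -map_inv]
  · by_cases z : A.c = 0
    · exact Or.inl (eq_bor z)
    · exact Or.inr (bruhat z)
  · simpa [xuH] using congrArg U2.a e
  · simpa [xuH] using congrArg U2.c e
  · have n' : (a : F) - d ≠ 0 := sub_ne_zero.2 fun z => n (Subtype.ext z)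
    have e1 := congrArg U2.a e
    have e2 := congrArg U2.b e
    simp [tdH] at e1 e2
    field_simp at e1 e2
    obtain ⟨x, y, rfl⟩ := eq_td (A := A) (mul_right_cancel₀ n' (by linear_combination -e2))
      (mul_right_cancel₀ n' (by linear_combination -e1))
    exact ⟨(x, y), rfl⟩

/-- the setting in the abstract model -/
theorem Hy.exists_mo {φ : U2 F →* G} {g : G} (h : Hy q φ g) :
    ∃ m : B85C.Mo (U2 F) (unitary F) Fˣ (Multiplicative (skewAdjoint F)), m.q = q ∧ B85C.Hy m φ g ∧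
      (D1 φ g → B85C.D1 m φ g) ∧ m.dg (m.e, m.e) = td (-1) (-1) := by
  obtain ⟨m, e1, e2, e3⟩ := B85.exists_mo h.fr h.odd
  refine ⟨m, e1, ⟨?_, ?_, ?_, ?_⟩, ?_, ?_⟩ <;> simp only [B85C.D1, e2, e3]
  exacts [h.range, h.ker, h.g1, h.g2, id, rfl]

end Cfsg.Agent.B85
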