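import Cfsg.Agent.Cl.GL2Sylow
import Cfsg.Agent.Cl.UStd

/-! # The unitary group of a hyperbolic plane -/

set_option autoImplicit false

namespace Cfsg.Agent.B85

open Cfsg.Agent.Cl Cfsg.Agent.Cl.Uni

/-- matrices preserving the form `u₁ v₂* + u₂ v₁*` -/
@[ext] structure U2 (F : Type*) [Field F] [StarRing F] where
  a : F
  b : F
  c : F
  d : F
  h1 : a * star c + c * star a = 0
  h2 : b * star d + d * star b = 0
  h3 : a * star d + c * star b = 1

variable {F : Type*} [Field F] [StarRing F]

namespace U2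

variable (A B : U2 F)

theorem h4 : star A.a * A.d + star A.c * A.b = 1 := by simpa using congrArg star A.h3
theorem sa : star A.a * (A.a * A.d - A.b * A.c) = A.a := by linear_combination A.a * A.h4 - A.b * A.h1
theorem sb : star A.b * (A.a * A.d - A.b * A.c) = -A.b := by linear_combination A.a * A.h2 - A.b * A.h3
theorem sc : star A.c * (A.a * A.d - A.b * A.c) = -A.c := by linear_combination A.d * A.h1 - A.c * A.h4
theorem sd : star A.d * (A.a * A.d - A.b * A.c) = A.d := by linear_combination A.d * A.h3 - A.c * A.h2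
theorem dn : (A.a * A.d - A.b * A.c) * star (A.a * A.d - A.b * A.c) = 1 := by
  simp only [star_sub, star_mul']
  linear_combination (star A.a * A.d + star A.c * A.b) * A.h3 + A.h4 - (A.b * star A.d + A.d * star A.b) * A.h1
theorem det_ne : A.a * A.d - A.b * A.c ≠ 0 := left_ne_zero_of_mul_eq_one A.dn
theorem r1 : star A.d * A.c + star A.c * A.d = 0 :=
  mul_right_cancel₀ A.det_ne (by linear_combination A.c * A.sd + A.d * A.sc)
theorem r2 : star A.b * A.a + star A.a * A.b = 0 :=
  mul_right_cancel₀ A.det_ne (by linear_combination A.a * A.sb + A.b * A.sa)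
theorem r3 : star A.d * A.a + star A.c * A.b = 1 :=
  mul_right_cancel₀ A.det_ne (by linear_combination A.a * A.sd + A.b * A.sc)

instance : Mul (U2 F) := ⟨fun A B => ⟨A.a * B.a + A.b * B.c, A.a * B.b + A.b * B.d, A.c * B.a + A.d * B.c,
  A.c * B.b + A.d * B.d,
  by simp only [star_add, star_mul']
     linear_combination B.a * star B.a * A.h1 + B.c * star B.c * A.h2 + B.a * star B.c * A.h3 +
       B.c * star B.a * A.h4 + B.h1,
  by simp only [star_add, star_mul']
     linear_combination B.b * star B.b * A.h1 + B.d * star B.d * A.h2 + B.b * star B.d * A.h3 +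
       B.d * star B.b * A.h4 + B.h2,
  by simp only [star_add, star_mul']
     linear_combination B.a * star B.b * A.h1 + B.c * star B.d * A.h2 + B.a * star B.d * A.h3 +
       B.c * star B.b * A.h4 + B.h3⟩⟩
instance : One (U2 F) := ⟨⟨1, 0, 0, 1, by simp, by simp, by simp⟩⟩
instance : Inv (U2 F) := ⟨fun A => ⟨star A.d, star A.b, star A.c, star A.a, by simpa using A.r1, by simpa using A.r2,
  by simpa using A.r3⟩⟩

@[simp] theorem mul_a : (A * B).a = A.a * B.a + A.b * B.c := rfl
@[simp] theorem mul_b : (A * B).b = A.a * B.b + A.b * B.d := rfl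
@[simp] theorem mul_c : (A * B).c = A.c * B.a + A.d * B.c := rfl
@[simp] theorem mul_d : (A * B).d = A.c * B.b + A.d * B.d := rfl
@[simp] theorem one_a : (1 : U2 F).a = 1 := rfl
@[simp] theorem one_b : (1 : U2 F).b = 0 := rfl
@[simp] theorem one_c : (1 : U2 F).c = 0 := rfl
@[simp] theorem one_d : (1 : U2 F).d = 1 := rfl
@[simp] theorem inv_a : A⁻¹.a = star A.d := rfl
@[simp] theorem inv_b : A⁻¹.b = star A.b := rfl
@[simp] theorem inv_c : A⁻¹.c = star A.c := rfl
@[simp] theorem inv_d : A⁻¹.d = star A.a := rfl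

instance : Group (U2 F) := Group.ofLeftAxioms (fun A B C => by ext <;> simp <;> ring) (fun A => by ext <;> simp)
  fun A => by
    ext <;> simp
    exacts [by linear_combination A.h3, by linear_combination A.h2, by linear_combination A.h1,
      by linear_combination A.h4]

end U2

theorem un1 (a : unitary F) : (a : F) * star (a : F) = 1 := a.2.2
theorem un_ne (a : unitary F) : (a : F) ≠ 0 := left_ne_zero_of_mul_eq_one (un1 a)
theorem un_inv (a : unitary F) : ((a⁻¹ : unitary F) : F) = star (a : F) := rfl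
@[simp] theorem un_neg (a : unitary F) : ((-a : unitary F) : F) = -(a : F) := rfl
theorem sk (c : skewAdjoint F) : star (c : F) = -c := c.2

/-- the determinant -/
def dt : U2 F →* unitary F :=
  MonoidHom.mk' (fun A => ⟨A.a * A.d - A.b * A.c, by rw [mul_comm]; exact A.dn, A.dn⟩) fun A B =>
    Subtype.ext (by simp; ring)
theorem dt_val (A : U2 F) : (dt A : F) = A.a * A.d - A.b * A.c := rfl

/-- the torus of the Borel subgroup -/
def kk : Fˣ →* U2 F := MonoidHom.mk' (fun a => ⟨a, 0, 0, (star (a : F))⁻¹, by simp, by simp, by simp⟩)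
  fun a b => by ext <;> simp [mul_comm]
@[simp] theorem kk_a (a : Fˣ) : (kk a).a = a := rfl
@[simp] theorem kk_b (a : Fˣ) : (kk a).b = 0 := rfl
@[simp] theorem kk_c (a : Fˣ) : (kk a).c = 0 := rfl
@[simp] theorem kk_d (a : Fˣ) : (kk a).d = (star (a : F))⁻¹ := rfl

/-- the root group -/
def xu (c : skewAdjoint F) : U2 F := ⟨1, c, 0, 1, by simp, by simp [sk], by simp⟩
@[simp] theorem xu_a (c : skewAdjoint F) : (xu c).a = 1 := rfl
@[simp] theorem xu_b (c : skewAdjoint F) : (xu c).b = c := rfl
@[simp] theorem xu_c (c : skewAdjoint F) : (xu c).c = 0 := rfl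
@[simp] theorem xu_d (c : skewAdjoint F) : (xu c).d = 1 := rfl
theorem xu_add (a b : skewAdjoint F) : xu a * xu b = xu (a + b) := by ext <;> simp [add_comm]
theorem xu_zero : xu (0 : skewAdjoint F) = 1 := by ext <;> simp
theorem xu_inv (a : skewAdjoint F) : (xu a)⁻¹ = xu (-a) := by ext <;> simp [sk]
def xuH : Multiplicative (skewAdjoint F) →* U2 F := MonoidHom.mk' (fun c => xu c.toAdd) fun _ _ => (xu_add _ _).symm
theorem xu_pow (c : skewAdjoint F) (n : ℕ) : xu c ^ n = xu (n • c) := (map_pow xuH (Multiplicative.ofAdd c) n).symm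
theorem xu_inj {a b : skewAdjoint F} (e : xu a = xu b) : a = b := Subtype.ext (congrArg U2.b e)
theorem dt_xu (c : skewAdjoint F) : dt (xu c) = 1 := Subtype.ext (by simp [dt_val])

/-- multiplication of a skew element by a norm -/
def nsm (a : F) (c : skewAdjoint F) : skewAdjoint F := ⟨a * star a * c, by
  simp [skewAdjoint.mem_iff, sk, mul_comm]⟩
@[simp] theorem nsm_val (a : F) (c : skewAdjoint F) : (nsm a c : F) = a * star a * c := rfl
theorem kk_xu (a : Fˣ) (c : skewAdjoint F) : kk a * xu c * (kk a)⁻¹ = xu (nsm (a : F) c) := by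
  have := star_ne_zero.2 a.ne_zero
  ext <;> simp [this] <;> ring

/-- the permutation matrix -/
def ww : U2 F := ⟨0, 1, 1, 0, by simp, by simp, by simp⟩
@[simp] theorem ww_a : (ww : U2 F).a = 0 := rfl
@[simp] theorem ww_b : (ww : U2 F).b = 1 := rfl
@[simp] theorem ww_c : (ww : U2 F).c = 1 := rfl
@[simp] theorem ww_d : (ww : U2 F).d = 0 := rfl
theorem ww_mul : (ww : U2 F) * ww = 1 := by ext <;> simp
theorem ww_inv : (ww : U2 F)⁻¹ = ww := by ext <;> simp
theorem ww_kk (a : Fˣ) : ww * kk a * ww⁻¹ = kk (star a)⁻¹ := by ext <;> simp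

theorem eq_bor {A : U2 F} (h : A.c = 0) : ∃ c a, A = xu c * kk a := by
  have e := A.h3
  rw [h, zero_mul, add_zero] at e
  have e' := A.h4
  rw [h, star_zero, zero_mul, add_zero] at e'
  refine ⟨⟨A.b * star A.a, ?_⟩, .mk0 _ (left_ne_zero_of_mul_eq_one e), ?_⟩
  · rw [skewAdjoint.mem_iff, star_mul', star_star]; linear_combination A.r2
  · have := left_ne_zero_of_mul_eq_one e'
    ext <;> simp [h, this]
    exact eq_inv_of_mul_eq_one_right e'

theorem eq_kk {A : U2 F} (h : A.c = 0) (h' : A.b = 0) : ∃ a, A = kk a := by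
  obtain ⟨c, a, rfl⟩ := eq_bor h
  obtain rfl : c = 0 := Subtype.ext (by simpa using h')
  exact ⟨a, by rw [xu_zero, one_mul]⟩

theorem bruhat {A : U2 F} (h : A.c ≠ 0) : ∃ c c' a, A = xu c * ww * (xu c' * kk a) := by
  have := star_ne_zero.2 h
  obtain ⟨c, hc⟩ : ∃ c : skewAdjoint F, (c : F) = A.a / A.c := ⟨⟨_, by
    rw [skewAdjoint.mem_iff, star_div₀]; field_simp; linear_combination A.h1⟩, rfl⟩
  obtain ⟨c', a, e⟩ := eq_bor (A := ww⁻¹ * (xu c)⁻¹ * A) (by
    simp [hc, sk]; field_simp; linear_combination A.h1)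
  exact ⟨c, c', a, by rw [← e]; group⟩

variable [NeZero (2 : F)]

/-- the torus centralising `ww` -/
def td (a b : unitary F) : U2 F := ⟨(a + b) / 2, (a - b) / 2, (a - b) / 2, (a + b) / 2,
  by simp only [star_div₀, star_add, star_sub, star_ofNat]; field_simp; linear_combination 2 * (un1 a - un1 b),
  by simp only [star_div₀, star_add, star_sub, star_ofNat]; field_simp; linear_combination 2 * (un1 a - un1 b),
  by simp only [star_div₀, star_add, star_sub, star_ofNat]; field_simp; linear_combination 2 * (un1 a + un1 b)⟩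
@[simp] theorem td_a (a b : unitary F) : (td a b).a = (a + b) / 2 := rfl
@[simp] theorem td_b (a b : unitary F) : (td a b).b = (a - b) / 2 := rfl
@[simp] theorem td_c (a b : unitary F) : (td a b).c = (a - b) / 2 := rfl
@[simp] theorem td_d (a b : unitary F) : (td a b).d = (a + b) / 2 := rfl

theorem td_mul (a b c d : unitary F) : td a b * td c d = td (a * c) (b * d) := by
  ext <;> simp <;> field_simp <;> ring
theorem td_one : td (1 : unitary F) 1 = 1 := by ext <;> simp
theorem td_inv (a b : unitary F) : (td a b)⁻¹ = td a⁻¹ b⁻¹ :=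
  inv_eq_of_mul_eq_one_right (by rw [td_mul, mul_inv_cancel, mul_inv_cancel, td_one])
theorem td_inj {a b c d : unitary F} : td a b = td c d ↔ a = c ∧ b = d := by
  refine ⟨fun e => ?_, by rintro ⟨rfl, rfl⟩; rfl⟩
  have e1 := congrArg U2.a e
  have e2 := congrArg U2.b e
  simp only [td_a, td_b] at e1 e2
  field_simp at e1 e2
  exact ⟨Subtype.ext (mul_left_cancel₀ two_ne_zero (by linear_combination e1 + e2)),
    Subtype.ext (mul_left_cancel₀ two_ne_zero (by linear_combination e1 - e2))⟩
theorem td_comm (c : unitary F) (A : U2 F) : td c c * A = A * td c c := by ext <;> simp [mul_comm]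
theorem td_ww : td (1 : unitary F) (-1) = ww := by ext <;> simp
theorem td_kk (c : unitary F) : td c c = kk (Unitary.toUnits c) := by
  ext <;> simp
  exact eq_inv_of_mul_eq_one_left (un1 c)
theorem td_neg : td (-1 : unitary F) (-1) = kk (-1) := by ext <;> simp
theorem kk_td {a : Fˣ} (h : (a : F) * star (a : F) = 1) : ∃ c, kk a = td c c :=
  ⟨⟨a, by rwa [mul_comm], h⟩, by rw [td_kk]; congr 1; exact Units.ext rfl⟩
theorem dt_td (a b : unitary F) : dt (td a b) = a * b := Subtype.ext (by simp [dt_val]; field_simp; ring)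
def tdH : unitary F × unitary F →* U2 F := MonoidHom.mk' (fun p => td p.1 p.2) fun _ _ => (td_mul _ _ _ _).symm
theorem td_pow (a b : unitary F) (n : ℕ) : td a b ^ n = td (a ^ n) (b ^ n) := (map_pow tdH (a, b) n).symm
theorem eq_td {A : U2 F} (h1 : A.d = A.a) (h2 : A.c = A.b) : ∃ a b, A = td a b := by
  have e1 := A.h1
  have e3 := A.h3
  rw [h2] at e1
  rw [h1, h2] at e3
  have p : (A.a + A.b) * star (A.a + A.b) = 1 := by rw [star_add]; linear_combination e1 + e3
  have m : (A.a - A.b) * star (A.a - A.b) = 1 := by rw [star_sub]; linear_combination e3 - e1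
  exact ⟨⟨_, by rwa [mul_comm], p⟩, ⟨_, by rwa [mul_comm], m⟩, by ext <;> simp [h1, h2]⟩
/-- an element of norm `-1` interchanges the coordinates of the torus -/
theorem kk_swap {i : Fˣ} (h : (i : F) * star (i : F) = -1) (a b : unitary F) :
    kk i * td a b * (kk i)⁻¹ = td b a := by
  have := star_ne_zero.2 i.ne_zero
  ext <;> simp <;> field_simp
  exacts [by ring, by linear_combination (a - b : F) * h, by linear_combination (a - b : F) * h, by ring]

theorem neg_ne : (-1 : unitary F) ≠ 1 := fun e => two_ne_zero (α := F) (by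
  have := congrArg Subtype.val e
  simp only [Unitary.coe_neg, OneMemClass.coe_one] at this
  linear_combination -this)

/-- an element commuting with a nontrivial root element -/
theorem comm_xu {A : U2 F} {c c' : skewAdjoint F} (hc : c ≠ 0) (e : A * xu c = xu c' * A) : A.c = 0 := by
  have e1 := congrArg U2.d e
  simp at e1
  exact e1.resolve_right hc

theorem central {A : U2 F} (nt : NT F) (e : ∀ B, A * B = B * A) : ∃ c, A = td c c := by
  obtain ⟨δ, h0, h1⟩ := nt.exists_delta
  have z := comm_xu (c := ⟨δ, h1⟩) (fun e => h0 (congrArg Subtype.val e)) (e _)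
  have e1 := congrArg U2.a (e ww)
  have e2 := congrArg U2.b (e ww)
  simp at e1 e2
  obtain ⟨a, b, rfl⟩ := eq_td e2.symm e1.symm
  obtain rfl : a = b := Subtype.ext (sub_eq_zero.1 (by simpa [two_ne_zero] using z))
  exact ⟨a, rfl⟩

variable {q : ℕ}

/-- an involution is `-1` or conjugate to `ww` -/
theorem invol_cases (H : IsFrob F q) {A : U2 F} (h : A * A = 1) (h1 : A ≠ 1) :
    A = td (-1) (-1) ∨ ∃ B, A = B * td 1 (-1) * B⁻¹ := by
  have i := (inv_eq_of_mul_eq_one_right h).symm
  have ia : A.a = star A.d := congrArg U2.a i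
  have ic : A.c = star A.c := congrArg U2.c i
  have e1 := congrArg U2.a h
  have e2 := congrArg U2.b h
  have e3 := congrArg U2.c h
  have e4 := congrArg U2.d h
  simp at e1 e2 e3 e4
  by_cases k : A.a + A.d = 0
  · right
    have sa : star A.a = -A.a := by rw [ia, star_star, ← ia]; linear_combination k
    have c0 : A.c ≠ 0 := fun c => by
      have : A.a * star A.a = 1 := by
        rcases mul_self_eq_one_iff.1 (show A.a * A.a = 1 by rw [c] at e1; linear_combination e1) with r | r <;> simp [r]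
      exact two_ne_zero (α := F) (by rw [c] at e1; rw [sa] at this; linear_combination -e1 - this)
    obtain ⟨l, hl⟩ := H.exists_norm (c := A.c⁻¹) (by rw [star_inv₀, ← ic])
    have hl' : l * star l * A.c = 1 := by rw [hl, inv_mul_cancel₀ c0]
    refine ⟨⟨l, l * A.a, 0, l * A.c, by simp, ?_, ?_⟩, eq_mul_inv_of_mul_eq ?_⟩
    · rw [star_mul', star_mul', ← ic, sa]; ring
    · rw [star_mul', ← ic]; linear_combination hl'
    · rw [td_ww]
      ext <;> simp
      exacts [mul_comm _ _, by linear_combination l * e1, mul_comm _ _, by linear_combination l * e3]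
  · left
    have b0 : A.b = 0 := (mul_eq_zero.1 (show A.b * (A.a + A.d) = 0 by linear_combination e2)).resolve_right k
    have c0 : A.c = 0 := (mul_eq_zero.1 (show A.c * (A.a + A.d) = 0 by linear_combination e3)).resolve_right k
    have ad : A.a = A.d := sub_eq_zero.1 ((mul_eq_zero.1 (show (A.a - A.d) * (A.a + A.d) = 0 by
      linear_combination e1 - e4)).resolve_right k)
    have : A.a = -1 := (mul_self_eq_one_iff.1 (show A.a * A.a = 1 by rw [b0] at e1; linear_combination e1)).resolve_left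
      fun e => h1 (by ext <;> simp [b0, c0, ← ad, e])
    ext <;> simp [b0, c0, ← ad, this]

omit [NeZero (2 : F)] in
theorem exists_i (H : IsFrob F q) : ∃ i : Fˣ, (i : F) * star (i : F) = -1 := by
  obtain ⟨i, h⟩ := H.exists_norm (c := -1) (by simp)
  exact ⟨.mk0 i (left_ne_zero_of_mul (b := star i) (by rw [h]; simp)), h⟩

theorem card_skew (H : IsFrob F q) : Nat.card (skewAdjoint F) = q := by
  obtain ⟨δ, h0, h1⟩ := H.nt.exists_delta
  have : Nat.card F = Nat.card (skewAdjoint F × skewAdjoint F) := Nat.card_congr (Equiv.ofBijective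
    (fun x => (⟨x - star x, by simp [skewAdjoint.mem_iff]⟩, ⟨δ * (x + star x), by
      simp [skewAdjoint.mem_iff, h1, add_comm]⟩)) ⟨fun x y e => by
      have e1 : x - star x = y - star y := congrArg (fun p => (p.1 : F)) e
      have e2 : δ * (x + star x) = δ * (y + star y) := congrArg (fun p => (p.2 : F)) e
      exact mul_left_cancel₀ two_ne_zero (by linear_combination e1 + mul_left_cancel₀ h0 e2),
      fun p => ⟨(p.1 + p.2 / δ) / 2, by ext <;> simp [sk, h1] <;> field_simp <;> ring⟩⟩)
  rw [H.card, Nat.card_prod, ← sq] at this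
  exact (Nat.pow_left_injective two_ne_zero this).symm

omit [NeZero (2 : F)] in
theorem card_un (H : IsFrob F q) : Nat.card (unitary F) = q + 1 := by
  classical
  have := H.card_norm_eq (c := 1) (by simp)
  rw [if_neg one_ne_zero] at this
  exact (Nat.card_congr (Equiv.subtypeEquivRight fun a =>
    ⟨fun e => e.2, fun e => ⟨by rwa [mul_comm], e⟩⟩)).trans this

/-- the matrix of an element -/
noncomputable def toGL : U2 F →* GL (Fin 2) F :=
  MonoidHom.mk' (fun A => gl2mk A.a A.b A.c A.d A.det_ne) fun A B => by simp [gl2_eq_iff, gl2_mul]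

theorem exists_equiv (H : IsFrob F q) : Nonempty (U2 F ≃* Cfsg.GU 2 F q) := by
  obtain ⟨i, hi⟩ := exists_i H
  have i0 := i.ne_zero
  obtain ⟨P, hP⟩ : ∃ P : GL (Fin 2) F, ∀ u v : Fin 2 → F, Cfsg.hermForm 2 F q (P.1.mulVec u) (P.1.mulVec v) =
      u 0 * star (v 1) + u 1 * star (v 0) := ⟨gl2mk 1 (1 / 2) i (-i / 2) (fun e => i0 (by field_simp at e; exact mul_left_cancel₀ two_ne_zero (by linear_combination -e))),
    fun u v => by
      simp [Cfsg.hermForm, ← H.star_eq, Matrix.mulVec, dotProduct, Fin.sum_univ_two]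
      field_simp
      linear_combination (2 * u 0 - u 1) * (2 * star (v 0) - star (v 1)) * hi⟩
  have hP' : ∀ u v : Fin 2 → F, Cfsg.hermForm 2 F q u v = P⁻¹.1.mulVec u 0 * star (P⁻¹.1.mulVec v 1) +
      P⁻¹.1.mulVec u 1 * star (P⁻¹.1.mulVec v 0) := fun u v => by
    rw [← hP, Matrix.mulVec_mulVec, Matrix.mulVec_mulVec, ← Units.val_mul, mul_inv_cancel]; simp
  refine ⟨MulEquiv.ofBijective (((MulAut.conj P).toMonoidHom.comp toGL).codRestrict (Cfsg.GU 2 F q) fun A => ?_)
    ⟨fun A B e => ?_, fun B => ?_⟩⟩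
  · intro u v
    rw [hP' u v]
    generalize hu : P⁻¹.1.mulVec u = u'
    generalize hv : P⁻¹.1.mulVec v = v'
    have : ∀ u, (Units.coeHom _ (((MulAut.conj P).toMonoidHom.comp toGL) A)).mulVec u =
        P.1.mulVec ((toGL A).1.mulVec (P⁻¹.1.mulVec u)) := fun u => by
      simp only [Matrix.mulVec_mulVec, ← Units.val_mul, ← mul_assoc]; rfl
    rw [this, this, hP, hu, hv]
    simp [toGL, Matrix.mulVec, dotProduct, Fin.sum_univ_two]
    linear_combination u' 0 * star (v' 0) * A.h1 + u' 1 * star (v' 1) * A.h2 + u' 0 * star (v' 1) * A.h3 +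
      u' 1 * star (v' 0) * A.h4
  · obtain ⟨e1, e2, e3, e4⟩ := gl2_eq_iff.1 ((MulAut.conj P).injective (congrArg Subtype.val e))
    exact U2.ext e1 e2 e3 e4
  · have k : ∀ u v : Fin 2 → F, (P⁻¹ * B.1 * P).1.mulVec u 0 * star ((P⁻¹ * B.1 * P).1.mulVec v 1) +
        (P⁻¹ * B.1 * P).1.mulVec u 1 * star ((P⁻¹ * B.1 * P).1.mulVec v 0) =
        u 0 * star (v 1) + u 1 * star (v 0) := fun u v => by
      rw [← hP u v, ← B.2, hP']
      simp only [Matrix.mulVec_mulVec, Units.val_mul, Units.coeHom_apply, mul_assoc]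
    generalize hM : P⁻¹ * B.1 * P = M at k
    have k1 := k ![1, 0] ![1, 0]
    have k2 := k ![0, 1] ![0, 1]
    have k3 := k ![1, 0] ![0, 1]
    simp [Matrix.mulVec, dotProduct, Fin.sum_univ_two] at k1 k2 k3
    refine ⟨⟨M.1 0 0, M.1 0 1, M.1 1 0, M.1 1 1, k1, k2, k3⟩, Subtype.ext ?_⟩
    change P * _ * P⁻¹ = _
    rw [show B.1 = P * M * P⁻¹ by rw [← hM]; group]
    congr 2
    simp [gl2_eq_iff, toGL]

theorem card_U2 (H : IsFrob F q) : Nat.card (U2 F) = q * ((q + 1) * (q ^ 2 - 1)) := by
  rw [Nat.card_congr ((exists_equiv H).some.trans (H.guEquiv 2)).toEquiv, H.card_UG]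
  simp [Finset.prod_range_succ]

end Cfsg.Agent.B85
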